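import Cfsg.Agent.M24Geo.StabCard

/-!
Two `M24`-orbits with a relation invariant separating the orbits of a stabiliser of a member of the
first on the second.
-/

set_option autoImplicit false

namespace Cfsg.Agent.M24Sub

open Cfsg.Agent.M24Geo

open scoped Pointwise
open Cfsg

variable {α β : Type} [MulAction (Equiv.Perm GolayPt) α] [MulAction (Equiv.Perm GolayPt) β]

/-- A transitive family acting on a second one with separating invariant. -/
structure BiFamily (α β : Type) [MulAction (Equiv.Perm GolayPt) α]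
    [MulAction (Equiv.Perm GolayPt) β] where
  /-- the first objects -/
  A : Set α
  /-- the second objects -/
  Y : Set β
  /-- the invariant -/
  R : α → β → ℕ
  /-- number of second objects in each relation with a given first one -/
  cnt : ℕ → ℕ
  smulA : ∀ g ∈ M24, ∀ x ∈ A, g • x ∈ A
  smulY : ∀ g ∈ M24, ∀ y ∈ Y, g • y ∈ Y
  R_smul : ∀ g ∈ M24, ∀ (x : α) (y : β), R (g • x) (g • y) = R x y
  base : α
  base_mem : base ∈ A
  trans_base : ∀ x ∈ A, ∃ g ∈ M24, g • base = x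
  separates : ∀ y ∈ Y, ∀ z ∈ Y, R base y = R base z →
    ∃ g ∈ M24, g • base = base ∧ g • y = z
  count_base : ∀ v, {y ∈ Y | R base y = v}.ncard = cnt v
  /-- the values of the invariant -/
  vals : List ℕ
  vals_base : ∀ y ∈ Y, R base y ∈ vals

namespace BiFamily

variable (F : BiFamily α β)

theorem transitive {x y : α} (hx : x ∈ F.A) (hy : y ∈ F.A) : ∃ g ∈ M24, g • x = y := by
  obtain ⟨g, hg, rfl⟩ := F.trans_base x hx
  obtain ⟨h, hh, rfl⟩ := F.trans_base y hy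
  exact ⟨h * g⁻¹, mul_mem hh (inv_mem hg), by rw [mul_smul, inv_smul_smul]⟩

theorem stab_trans {x : α} {y z : β} (hx : x ∈ F.A) (hy : y ∈ F.Y) (hz : z ∈ F.Y)
    (h : F.R x y = F.R x z) : ∃ g ∈ M24, g • x = x ∧ g • y = z := by
  obtain ⟨g, hg, rfl⟩ := F.trans_base x hx
  have hy' := F.smulY _ (inv_mem hg) y hy
  have hz' := F.smulY _ (inv_mem hg) z hz
  have h' : F.R F.base (g⁻¹ • y) = F.R F.base (g⁻¹ • z) := by
    rw [← F.R_smul g hg, ← F.R_smul g hg (y := g⁻¹ • z), smul_inv_smul, smul_inv_smul, h]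
  obtain ⟨k, hk, hk1, hk2⟩ := F.separates _ hy' _ hz' h'
  refine ⟨g * k * g⁻¹, mul_mem (mul_mem hg hk) (inv_mem hg), ?_, ?_⟩
  · rw [mul_smul, mul_smul, inv_smul_smul, hk1]
  · rw [mul_smul, mul_smul, hk2, smul_inv_smul]

theorem count {x : α} (hx : x ∈ F.A) (v : ℕ) : {y ∈ F.Y | F.R x y = v}.ncard = F.cnt v := by
  obtain ⟨g, hg, rfl⟩ := F.trans_base x hx
  rw [← F.count_base v]
  have : {y ∈ F.Y | F.R (g • F.base) y = v} = (fun y => g • y) '' {y ∈ F.Y | F.R F.base y = v} := by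
    ext y
    simp only [Set.mem_ofPred_eq, Set.mem_image]
    constructor
    · rintro ⟨hy, h⟩
      refine ⟨g⁻¹ • y, ⟨F.smulY _ (inv_mem hg) y hy, ?_⟩, smul_inv_smul _ _⟩
      rw [← F.R_smul g hg, smul_inv_smul, h]
    · rintro ⟨z, ⟨hz, h⟩, rfl⟩
      exact ⟨F.smulY g hg z hz, by rw [F.R_smul g hg, h]⟩
  rw [this]
  exact Set.ncard_image_of_injective _ (MulAction.injective g)

theorem vals_mem {x : α} (hx : x ∈ F.A) {y : β} (hy : y ∈ F.Y) : F.R x y ∈ F.vals := by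
  obtain ⟨g, hg, rfl⟩ := F.trans_base x hx
  rw [show y = g • (g⁻¹ • y) from (smul_inv_smul g y).symm, F.R_smul g hg]
  exact F.vals_base _ (F.smulY _ (inv_mem hg) y hy)

theorem stab_orbit_eq {x : α} {y : β} (hx : x ∈ F.A) (hy : y ∈ F.Y) :
    MulAction.orbit (MulAction.stabilizer M24 x) y = {z ∈ F.Y | F.R x z = F.R x y} := by
  ext z
  constructor
  · rintro ⟨g, rfl⟩
    refine ⟨F.smulY _ (g : M24).2 y hy, ?_⟩
    have hg : ((g : M24) : Equiv.Perm GolayPt) • x = x := MulAction.mem_stabilizer_iff.mp g.2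
    show F.R x (((g : M24) : Equiv.Perm GolayPt) • y) = F.R x y
    have h := F.R_smul ((g : M24) : Equiv.Perm GolayPt) (g : M24).2 x y
    rwa [hg] at h
  · rintro ⟨hz, h⟩
    obtain ⟨g, hg, hgx, rfl⟩ := F.stab_trans hx hy hz h.symm
    exact ⟨⟨⟨g, hg⟩, MulAction.mem_stabilizer_iff.mpr hgx⟩, rfl⟩

theorem exists_related {x : α} (hx : x ∈ F.A) {v : ℕ} (hv : F.cnt v ≠ 0) :
    ∃ y ∈ F.Y, F.R x y = v := by
  rw [← F.count hx v] at hv
  obtain ⟨y, hy⟩ := Set.nonempty_of_ncard_ne_zero hv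
  exact ⟨y, hy.1, hy.2⟩

/-- An orbit for each value of the invariant. -/
theorem exists_orbit {x : α} (hx : x ∈ F.A) {v N : ℕ} (hv : F.cnt v = N) (hN : N ≠ 0) :
    ∃ y ∈ F.Y, (MulAction.orbit (MulAction.stabilizer M24 x) y).ncard = N ∧
      MulAction.orbit (MulAction.stabilizer M24 x) y = {z ∈ F.Y | F.R x z = v} := by
  obtain ⟨y, hy, hxy⟩ := F.exists_related hx (v := v) (by omega)
  have h := F.stab_orbit_eq hx hy
  rw [hxy] at h
  exact ⟨y, hy, by rw [h, F.count hx, hv], h⟩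

/-- The stabiliser of a member of the second family is transitive on each class of the first. -/
theorem stab_trans' {x x' : α} {y : β} (hx : x ∈ F.A) (hx' : x' ∈ F.A) (hy : y ∈ F.Y)
    (h : F.R x y = F.R x' y) : ∃ g ∈ M24, g • y = y ∧ g • x = x' := by
  obtain ⟨g, hg, rfl⟩ := F.transitive hx hx'
  have hgy := F.smulY g hg y hy
  obtain ⟨k, hk, hk1, hk2⟩ := F.stab_trans hx' hgy hy (by rw [F.R_smul g hg, h])
  exact ⟨k * g, mul_mem hk hg, by rw [mul_smul, hk2], by rw [mul_smul, hk1]⟩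

theorem stab_orbit_eq' {x : α} {y : β} (hx : x ∈ F.A) (hy : y ∈ F.Y) :
    MulAction.orbit (MulAction.stabilizer M24 y) x = {z ∈ F.A | F.R z y = F.R x y} := by
  ext z
  constructor
  · rintro ⟨g, rfl⟩
    refine ⟨F.smulA _ (g : M24).2 x hx, ?_⟩
    have hg : ((g : M24) : Equiv.Perm GolayPt) • y = y := MulAction.mem_stabilizer_iff.mp g.2
    show F.R (((g : M24) : Equiv.Perm GolayPt) • x) y = F.R x y
    have h := F.R_smul ((g : M24) : Equiv.Perm GolayPt) (g : M24).2 x y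
    rwa [hg] at h
  · rintro ⟨hz, h⟩
    obtain ⟨g, hg, hgy, rfl⟩ := F.stab_trans' hx hz hy h.symm
    exact ⟨⟨⟨g, hg⟩, MulAction.mem_stabilizer_iff.mpr hgy⟩, rfl⟩

/-- Double counting of the pairs in a given relation. -/
theorem count' (hA : F.A.Finite) (hY : F.Y.Finite)
    (htY : ∀ y ∈ F.Y, ∀ z ∈ F.Y, ∃ g ∈ M24, g • y = z) {y : β} (hy : y ∈ F.Y) (v : ℕ) :
    F.A.ncard * F.cnt v = F.Y.ncard * {x ∈ F.A | F.R x y = v}.ncard := by
  classical
  have h1 : ∀ z ∈ F.Y, {x ∈ F.A | F.R x z = v}.ncard = {x ∈ F.A | F.R x y = v}.ncard := by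
    intro z hz
    obtain ⟨g, hg, rfl⟩ := htY y hy z hz
    have : {x ∈ F.A | F.R x (g • y) = v} = (fun x => g • x) '' {x ∈ F.A | F.R x y = v} := by
      ext x
      simp only [Set.mem_ofPred_eq, Set.mem_image]
      constructor
      · rintro ⟨hx, h⟩
        refine ⟨g⁻¹ • x, ⟨F.smulA _ (inv_mem hg) x hx, ?_⟩, smul_inv_smul _ _⟩
        rw [← F.R_smul g hg, smul_inv_smul, h]
      · rintro ⟨z, ⟨hz, h⟩, rfl⟩
        exact ⟨F.smulA g hg z hz, by rw [F.R_smul g hg, h]⟩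
    rw [this]
    exact Set.ncard_image_of_injective _ (MulAction.injective g)
  have key := Finset.card_mul_eq_card_mul (s := hA.toFinset) (t := hY.toFinset)
    (fun x z => F.R x z = v) (m := F.cnt v) (n := {x ∈ F.A | F.R x y = v}.ncard) ?_ ?_
  · rwa [← Set.ncard_eq_toFinset_card _ hA, ← Set.ncard_eq_toFinset_card _ hY] at key
  · intro x hx
    rw [← F.count ((Set.Finite.mem_toFinset _).mp hx) v, ← Set.ncard_coe_finset]
    congr 1
    ext z
    simp [Finset.bipartiteAbove]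
  · intro z hz
    rw [← h1 z ((Set.Finite.mem_toFinset _).mp hz), ← Set.ncard_coe_finset]
    congr 1
    ext x
    simp [Finset.bipartiteBelow]

/-- An orbit on the first family for each value of the invariant. -/
theorem exists_orbit' (hA : F.A.Finite) (hY : F.Y.Finite)
    (htY : ∀ y ∈ F.Y, ∀ z ∈ F.Y, ∃ g ∈ M24, g • y = z) {a b : ℕ} (ha : F.A.ncard = a)
    (hb : F.Y.ncard = b) {y : β} (hy : y ∈ F.Y) {v M N : ℕ} (hv : F.cnt v = M)
    (h : a * M = b * N) (hb0 : b ≠ 0) (hN : N ≠ 0) :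
    ∃ x ∈ F.A, (MulAction.orbit (MulAction.stabilizer M24 y) x).ncard = N ∧
      MulAction.orbit (MulAction.stabilizer M24 y) x = {z ∈ F.A | F.R z y = v} := by
  have hc := F.count' hA hY htY hy v
  rw [ha, hb, hv, h] at hc
  have hc' : {x ∈ F.A | F.R x y = v}.ncard = N :=
    (Nat.eq_of_mul_eq_mul_left (by omega) hc).symm
  obtain ⟨x, hx, hxy⟩ := Set.nonempty_of_ncard_ne_zero (hc'.trans_ne hN)
  have h' := F.stab_orbit_eq' hx hy
  rw [hxy] at h'
  exact ⟨x, hx, by rw [h', hc'], h'⟩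

end BiFamily

/-- Separation from a certificate. -/
theorem bi_separates {T : OT} {step : List ℕ → ℕ → ℕ → Bool} {gens : List (List ℕ)}
    {roots : List ℕ} {kinv : ℕ → ℕ} {dec : ℕ → β} (hstep : StepSound dec step)
    (hT : T.check step gens roots = true) (hgens : gens.all autL = true)
    (hsep : (roots.map kinv).Nodup) {base : α} (hfix : ∀ l ∈ gens, permOf l • base = base)
    {Y : Set β} {R : α → β → ℕ}
    (R_smul : ∀ g ∈ M24, ∀ (x : α) (y : β), R (g • x) (g • y) = R x y)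
    (hY : ∀ y ∈ Y, ∃ k ∈ T.keys, dec k = y) (hkinv : ∀ k ∈ roots, R base (dec k) = kinv k) :
    ∀ y ∈ Y, ∀ z ∈ Y, R base y = R base z →
      ∃ g ∈ M24, g • base = base ∧ g • y = z := by
  intro y hy z hz h
  obtain ⟨k, hk, rfl⟩ := hY y hy
  obtain ⟨k', hk', rfl⟩ := hY z hz
  have hK : ∀ l ∈ gens, permOf l ∈ M24 ⊓ MulAction.stabilizer (Equiv.Perm GolayPt) base :=
    fun l hl => Subgroup.mem_inf.mpr ⟨gens_le_M24 hgens l hl, hfix l hl⟩
  obtain ⟨r, hr, g, hg, hge⟩ := orbit_cert hstep hT hgens _ hK k hk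
  obtain ⟨r', hr', g', hg', hge'⟩ := orbit_cert hstep hT hgens _ hK k' hk'
  rw [Subgroup.mem_inf, MulAction.mem_stabilizer_iff] at hg hg'
  have h1 : R base (dec r) = R base (dec r') := by
    rw [← R_smul g hg.1, ← R_smul g' hg'.1 base (dec r'), hge, hge', hg.2, hg'.2, h]
  rw [hkinv r hr, hkinv r' hr'] at h1
  obtain rfl : r = r' := List.inj_on_of_nodup_map hsep hr hr' h1
  refine ⟨g' * g⁻¹, mul_mem hg'.1 (inv_mem hg.1), ?_, ?_⟩
  · rw [mul_smul, inv_smul_eq_iff.mpr hg.2.symm, hg'.2]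
  · rw [← hge, mul_smul, inv_smul_smul, hge']

-- Counting from a list of keys.
omit [MulAction (Equiv.Perm GolayPt) α] [MulAction (Equiv.Perm GolayPt) β] in
theorem bi_count {L : List ℕ} (hL : L.Nodup) {dec : ℕ → β} {Y : Set β} {R : α → β → ℕ}
    {base : α} {kinv : ℕ → ℕ} (hY : ∀ y ∈ Y, ∃ k ∈ L, dec k = y) (hk : ∀ k ∈ L, dec k ∈ Y)
    (hinj : Set.InjOn dec {k | k ∈ L}) (hkinv : ∀ k ∈ L, R base (dec k) = kinv k) (v : ℕ) :
    {y ∈ Y | R base y = v}.ncard = (L.filter fun k => kinv k == v).length := by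
  rw [← List.toFinset_card_of_nodup (hL.filter _), ← Set.ncard_coe_finset,
    ← (hinj.mono fun k hk => (List.mem_filter.mp (List.mem_toFinset.mp hk)).1).ncard_image]
  congr 1
  ext y
  simp only [Set.mem_ofPred_eq, List.coe_toFinset, Set.mem_image, List.mem_filter, beq_iff_eq]
  constructor
  · rintro ⟨hy, h⟩
    obtain ⟨k, hk', rfl⟩ := hY y hy
    exact ⟨k, ⟨hk', by rw [← hkinv k hk', h]⟩, rfl⟩
  · rintro ⟨k, ⟨hk', h⟩, rfl⟩
    exact ⟨hk k hk', by rw [hkinv k hk', h]⟩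

end Cfsg.Agent.M24Sub
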