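import Cfsg.Agent.M24Sub.Overgroup
import Cfsg.Agent.M24Geo.OctadStab

/-!
Overgroups of the flag stabiliser of the three orders: an octad is fixed, or the blocks form a
sextet.
-/

set_option autoImplicit false

namespace Cfsg.Agent.M24Sub

open Cfsg Cfsg.Agent.Golay
open scoped Pointwise

/-- A candidate orbit of the stabiliser of the first point. -/
def cand (bc ba bq : Bool) : Finset GolayPt :=
  Finset.univ.filter fun p =>
    (if ptIdx p = 23 then false else if ptIdx p = 0 then bc
    else if ptIdx p = 1 ∨ ptIdx p = 2 then ba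
    else if ptIdx p = 3 ∨ ptIdx p = 5 ∨ ptIdx p = 14 ∨ ptIdx p = 17 then bq else true) = true

theorem cand_card : ∀ bc ba bq : Bool, (cand bc ba bq).card =
    16 + (if bc then 1 else 0) + (if ba then 2 else 0) + (if bq then 4 else 0) := by
  decide +kernel

theorem cand_sets :
    (∀ p, p ∈ oct0 ↔ p = x0 ∨ (p ≠ x0 ∧ p ∉ cand false false false)) ∧
    (∀ p, p ∈ quad ↔ p = x0 ∨ (p ≠ x0 ∧ p ∉ cand false false true)) ∧
    (∀ p, (p ≠ x0 ∧ p ∉ cand false true false) ↔
      p ∈ ({ptOf 0, ptOf 3, ptOf 5, ptOf 14, ptOf 17} : Finset GolayPt)) ∧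
    (∀ p, (p ≠ x0 ∧ p ∉ cand true false true) ↔ p ∈ ({ptOf 1, ptOf 2} : Finset GolayPt)) := by
  decide +kernel

/-- What is assumed of the subgroup. -/
structure Setup (K : Subgroup (Equiv.Perm GolayPt)) (N : ℕ) : Prop where
  le : K ≤ Cfsg.M24
  flag : flagGroup ≤ K
  card : Nat.card K = N
  orders : N = 322560 ∨ N = 138240 ∨ N = 967680
  trans : ∀ p, ∃ k ∈ K, k x0 = p

variable {K : Subgroup (Equiv.Perm GolayPt)} {N : ℕ}

theorem Setup.card_stab (S : Setup K N) :
    24 * Nat.card ↥(K ⊓ MulAction.stabilizer (Equiv.Perm GolayPt) x0) = N := by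
  rw [← S.card, card_eq_orbitFin_mul K x0,
    show orbitFin K x0 = Finset.univ from Finset.eq_univ_of_forall fun p => mem_orbitFin.2 (S.trans p),
    Finset.card_univ, card_golayPt]

/-- The orbit of the stabiliser of the first point containing the complement of the octad. -/
theorem Setup.exists_cand (S : Setup K N) : ∃ bc ba bq : Bool,
    (cand bc ba bq).card ∣ N / 24 ∧
      (∀ k ∈ K, k x0 = x0 → ∀ p ∈ cand bc ba bq, k p ∈ cand bc ba bq) ∧
      ∀ p ∈ cand bc ba bq,
        orbitFin (K ⊓ MulAction.stabilizer (Equiv.Perm GolayPt) x0) p = cand bc ba bq := by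
  classical
  set L := K ⊓ MulAction.stabilizer (Equiv.Perm GolayPt) x0 with hL
  set O := orbitFin L (ptOf 4) with hO
  have hmove : ∀ {a q : ℕ}, Moves a q → (ptOf a ∈ O ↔ ptOf q ∈ O) := by
    intro a q ⟨g, hg, e, e0⟩
    have hgL : g ∈ L := ⟨S.flag hg, e0⟩
    refine ⟨fun h => e ▸ orbitFin_inv hgL h, fun h => ?_⟩
    have := orbitFin_inv (inv_mem hgL) h
    rwa [← e, show g⁻¹ (g (ptOf a)) = ptOf a from g.symm_apply_apply _] at this
  have hx : x0 ∉ O := by
    intro h
    obtain ⟨k, hk, e⟩ := mem_orbitFin.1 h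
    have h2 : k x0 = x0 := hk.2
    have := k.injective (h2.trans e.symm)
    revert this
    decide +kernel
  refine ⟨decide (ptOf 0 ∈ O), decide (ptOf 1 ∈ O), decide (ptOf 3 ∈ O), ?_⟩
  have hOeq : O = cand (decide (ptOf 0 ∈ O)) (decide (ptOf 1 ∈ O)) (decide (ptOf 3 ∈ O)) := by
    ext p
    obtain ⟨i, hi, rfl⟩ : ∃ i < 24, ptOf i = p := ⟨ptIdx p, ptIdx_lt p, M24.ptOf_ptIdx p⟩
    simp only [cand, Finset.mem_filter, Finset.mem_univ, true_and, M24.ptIdx_ptOf i hi]
    split_ifs with h1 h2 h3 h4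
    · subst h1; simpa using hx
    · subst h2; simp
    · rw [decide_eq_true_eq]; exact (hmove (flag_moves_pair h3)).symm
    · rw [decide_eq_true_eq]; exact (hmove (flag_moves_tetrad h4)).symm
    · refine iff_of_true ((hmove (flag_moves_rest hi ?_)).1 (self_mem_orbitFin _ _)) rfl
      simp only [flagPts, List.mem_cons, List.not_mem_nil, or_false]
      omega
  rw [← hOeq]
  refine ⟨?_, fun k hk hk0 p hp => orbitFin_inv (show k ∈ L from ⟨hk, hk0⟩) hp,
    fun p hp => orbitFin_eq_of_mem hp⟩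
  rw [show N / 24 = Nat.card L by rw [← S.card_stab, Nat.mul_div_cancel_left _ (by norm_num)]]
  exact card_orbitFin_dvd L _

theorem cand_sizes : ∀ n ∈ ([13440, 5760, 40320] : List ℕ), ∀ bc ba bq : Bool,
    n % (16 + (if bc then 1 else 0) + (if ba then 2 else 0) + (if bq then 4 else 0)) = 0 →
      (bc, ba, bq) ∈ [(false, false, false), (false, true, false), (false, false, true),
        (true, false, true)] := by
  decide +kernel

theorem inv_compl {bc ba bq : Bool}
    (h : ∀ k ∈ K, k x0 = x0 → ∀ p ∈ cand bc ba bq, k p ∈ cand bc ba bq) :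
    ∀ k ∈ K, k x0 = x0 → ∀ p, (p ≠ x0 ∧ p ∉ cand bc ba bq) → k p ≠ x0 ∧ k p ∉ cand bc ba bq := by
  intro k hk hk0 p ⟨hp0, hp⟩
  refine ⟨fun e => hp0 (k.injective (e.trans hk0.symm)), fun hc => hp ?_⟩
  have := h k⁻¹ (inv_mem hk) (Equiv.Perm.inv_eq_iff_eq.2 hk0.symm) _ hc
  rwa [show k⁻¹ (k p) = p from k.symm_apply_apply p] at this

theorem flag_maps_octad {g : Equiv.Perm GolayPt} (hg : g ∈ flagGroup) :
    ∀ p ∈ oct0, g p ∈ oct0 := by
  intro p hp
  rw [flag_facts.1] at hp ⊢
  have := (flagPred_iff.1 hg.2 _ hp).1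
  rwa [M24.posFun_ptIdx] at this

theorem quad_idx : (∀ p : GolayPt, p ∈ quad ↔ ptIdx p ∈ flagPts ∧ flagIdx (ptIdx p) / 4 = 0) ∧
    x0 ∈ quad ∧ flagIdx 23 / 4 = 0 := by
  decide +kernel

theorem flag_quad {g : Equiv.Perm GolayPt} (hg : g ∈ flagGroup) (h : g x0 ∈ quad) :
    g • quad = quad := by
  refine Finset.eq_of_subset_of_card_le (fun q hq => ?_) (Finset.card_smul_finset _ _).ge
  obtain ⟨p, hp, rfl⟩ := Finset.mem_smul_finset.mp hq
  rw [quad_idx.1] at hp h
  rw [Equiv.Perm.smul_def, quad_idx.1]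
  have h23 := flagPred_iff.1 hg.2 23 (by decide)
  obtain ⟨hi, hij⟩ := flagPred_iff.1 hg.2 _ hp.1
  rw [M24.posFun_ptIdx] at hi
  refine ⟨hi, ?_⟩
  have hrel := (h23.2 _ hp.1).2.1 (by rw [quad_idx.2.2, hp.2])
  rw [M24.posFun_ptIdx, show M24.posFun g 23 = ptIdx (g x0) from rfl, h.2] at hrel
  exact hrel.symm

/-- Elements fixing four or five given points pointwise. -/
theorem quad_base : (∀ j < 4, basePt j ∈ quad) ∧ (∀ p ∈ quad, ∃ j < 4, basePt j = p) := by
  decide +kernel

theorem card_fix_quad_le {g : Subgroup (Equiv.Perm GolayPt)} (hle : g ≤ Cfsg.M24)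
    (hfix : ∀ k ∈ g, ∀ p ∈ quad, k p = p) : g ≤ chainStab Cfsg.M24 4 := fun k hk =>
  mem_chainStab.2 ⟨hle hk, fun j hj => hfix k hk _ (quad_base.1 j hj)⟩

theorem card_chain_four : Nat.card (chainStab Cfsg.M24 4) = 960 :=
  (card_chainStab gen3_le le_rfl).2.2.2.2.1

/-- Six points of the octad. -/
def sixSeq (i : ℕ) : GolayPt :=
  ([ptOf 23, ptOf 0, ptOf 3, ptOf 5, ptOf 14, ptOf 17] : List GolayPt).getD i (ptOf 23)

theorem sixSeq_facts : (∀ i < 6, ∀ j < 6, sixSeq i = sixSeq j → i = j) ∧
    (∀ i < 6, sixSeq i ∈ oct0) ∧ (∀ i < 6, sixSeq i = x0 ∨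
      sixSeq i ∈ ({ptOf 0, ptOf 3, ptOf 5, ptOf 14, ptOf 17} : Finset GolayPt)) := by
  decide +kernel

theorem exists_six_to_base : ∃ g ∈ Cfsg.M24, ∀ i < 6, g (sixSeq i) = basePt i := by
  classical
  refine exists_to_base (by norm_num) sixSeq fun j hj g hg hfix => ?_
  have hne : ∀ i < j, g (sixSeq j) ≠ basePt i := fun i hi e => by
    rw [← hfix i hi] at e
    exact absurd (sixSeq_facts.1 j hj i (by omega) (g.injective e)) (by omega)
  by_cases h5 : j < 5
  · rw [IsTarget, if_pos h5]; exact hne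
  obtain rfl : j = 5 := by omega
  rw [IsTarget, if_neg (by norm_num), if_pos rfl]
  refine ⟨?_, hne⟩
  have hoct : g • oct0 = oct0 := by
    refine octad_eq_of_five (smul_mem_octads hg oct0_mem) oct0_mem ?_
    refine le_trans (le_of_eq ?_) (Finset.card_le_card
      (show (Finset.univ : Finset (Fin 5)).image (fun i : Fin 5 => basePt i.val) ⊆ (g • oct0) ∩ oct0 from
        fun q hq => ?_))
    · rw [Finset.card_image_of_injective]
      · simp
      · intro i i' e
        revert i i'
        decide +kernel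
    · obtain ⟨i, -, rfl⟩ := Finset.mem_image.1 hq
      refine Finset.mem_inter.2 ⟨?_, basePt_mem_oct0 i⟩
      rw [← hfix i i.isLt]
      exact Finset.smul_mem_smul_finset (sixSeq_facts.2.1 i (by omega))
  exact apply_mem_of_smul_eq hoct (sixSeq_facts.2.1 5 (by norm_num))

/-- The five-point case is impossible. -/
theorem Setup.no_pentad (S : Setup K N)
    (h : ∀ k ∈ K, k x0 = x0 → ∀ p ∈ cand false true false, k p ∈ cand false true false) : False := by
  classical
  set L := K ⊓ MulAction.stabilizer (Equiv.Perm GolayPt) x0 with hL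
  set W : Finset GolayPt := {ptOf 0, ptOf 3, ptOf 5, ptOf 14, ptOf 17} with hW
  have hinv : ∀ k ∈ L, ∀ p ∈ W, k p ∈ W := fun k hk p hp =>
    (cand_sets.2.2.1 _).1 (inv_compl h k hk.1 hk.2 p ((cand_sets.2.2.1 p).2 hp))
  set Ker := (invHom L W hinv).ker with hKer
  have hidx : Ker.index ≤ 120 := by
    rw [hKer, Subgroup.index_ker]
    refine (Subgroup.card_le_card_group _).trans ?_
    rw [Nat.card_perm, Nat.card_eq_finsetCard]
    exact le_of_eq (by rw [hW]; decide +kernel)
  obtain ⟨a, ha, hab⟩ := exists_six_to_base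
  have hker : Nat.card Ker ≤ 16 := by
    rw [← (card_chainStab (H := Cfsg.M24) gen3_le le_rfl).2.2.2.2.2.2]
    have hmem : ∀ k : Ker, a * ((k : L) : Equiv.Perm GolayPt) * a⁻¹ ∈ chainStab Cfsg.M24 6 := by
      intro k
      refine mem_chainStab.2 ⟨mul_mem (mul_mem ha (S.le (k : L).2.1)) (inv_mem ha), fun j hj => ?_⟩
      rw [← hab j hj, Equiv.Perm.mul_apply, Equiv.Perm.mul_apply,
        show a⁻¹ (a (sixSeq j)) = sixSeq j from a.symm_apply_apply _]
      refine congrArg a ?_
      rcases sixSeq_facts.2.2 j hj with e | e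
      · rw [e]; exact (k : L).2.2
      · exact congrArg Subtype.val (Equiv.ext_iff.mp (MonoidHom.mem_ker.1 k.2) ⟨_, e⟩)
    refine Nat.card_le_card_of_injective (fun k => (⟨_, hmem k⟩ : chainStab Cfsg.M24 6))
      fun u v e => ?_
    have e' := congrArg Subtype.val e
    simp only [mul_left_inj, mul_right_inj] at e'
    exact Subtype.ext (Subtype.ext e')
  have hmul := Subgroup.index_mul_card Ker
  have hcard : 24 * Nat.card L = N := S.card_stab
  have : Nat.card L ≤ 120 * 16 := hmul ▸ Nat.mul_le_mul hidx hker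
  rcases S.orders with h | h | h <;> omega

/-- The pair case is impossible. -/
theorem Setup.no_pair (S : Setup K N)
    (h : ∀ k ∈ K, k x0 = x0 → ∀ p ∈ cand true false true, k p ∈ cand true false true)
    (horb : ∀ p ∈ cand true false true,
      orbitFin (K ⊓ MulAction.stabilizer (Equiv.Perm GolayPt) x0) p = cand true false true) :
    False := by
  classical
  set L := K ⊓ MulAction.stabilizer (Equiv.Perm GolayPt) x0 with hL
  set D : Finset GolayPt := {ptOf 1, ptOf 2} with hD
  have hinv : ∀ k ∈ L, ∀ p ∈ D, k p ∈ D := fun k hk p hp =>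
    (cand_sets.2.2.2 _).1 (inv_compl h k hk.1 hk.2 p ((cand_sets.2.2.2 p).2 hp))
  set Ker := (invHom L D hinv).ker with hKer
  have hidx : Ker.index ≤ 2 := by
    rw [hKer, Subgroup.index_ker]
    refine (Subgroup.card_le_card_group _).trans ?_
    rw [Nat.card_perm, Nat.card_eq_finsetCard]
    exact le_of_eq (by rw [hD]; decide +kernel)
  -- an element of the flag group moving the first point into the pair
  obtain ⟨s, hs, es⟩ := flag_orbit_octad (q := 1) (by decide)
  have hsD : ∀ p ∈ D, s p = x0 ∨ s p = ptOf 0 := by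
    intro p hp
    have hp' : p ∈ quad ∧ flagIdx (ptIdx p) / 2 = 1 := by
      revert hp; rw [hD]; revert p; decide +kernel
    obtain ⟨hsi, hrel⟩ := flagPred_iff.1 hs.2 23 (by decide)
    have h2 := (quad_idx.1 p).1 hp'.1
    have hpi := (flagPred_iff.1 hs.2 _ h2.1).1
    rw [M24.posFun_ptIdx] at hpi
    have hr := hrel _ h2.1
    rw [M24.posFun_ptIdx, show M24.posFun s 23 = 1 by
      rw [M24.posFun, es, M24.ptIdx_ptOf 1 (by norm_num)]] at hr
    have hq : flagIdx (ptIdx (s p)) / 4 = 0 := by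
      have := hr.2.1 (by rw [h2.2]; decide)
      rw [← this]; decide
    have hne : flagIdx (ptIdx (s p)) / 2 ≠ 1 := fun e => by
      have := hr.1.2 (by rw [e]; decide)
      rw [hp'.2] at this
      revert this; decide
    revert hq hne hpi
    generalize s p = r
    revert r
    decide +kernel
  have hker : ∀ k : Ker, ((k : L) : Equiv.Perm GolayPt) (ptOf 0) = ptOf 0 := by
    intro k
    set u : Equiv.Perm GolayPt := ((k : L) : Equiv.Perm GolayPt)
    have hu1 : u (ptOf 1) = ptOf 1 := congrArg Subtype.val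
      (Equiv.ext_iff.mp (MonoidHom.mem_ker.1 k.2) ⟨_, by rw [hD]; exact Finset.mem_insert_self _ _⟩)
    -- the pair of the point `ptOf 1`
    have hv : s⁻¹ * u * s ∈ L := by
      refine Subgroup.mem_inf.2 ⟨mul_mem (mul_mem (inv_mem (S.flag hs)) (k : L).2.1) (S.flag hs),
        MulAction.mem_stabilizer_iff.2 ?_⟩
      show (s⁻¹ * u * s) x0 = x0
      rw [Equiv.Perm.mul_apply, Equiv.Perm.mul_apply, es, hu1, Equiv.Perm.inv_eq_iff_eq, es]
    obtain ⟨p, hp, hsp⟩ : ∃ p ∈ D, s p = ptOf 0 := by
      by_contra hcon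
      push Not at hcon
      have h1 := (hsD (ptOf 1) (by rw [hD]; simp)).resolve_right (hcon _ (by rw [hD]; simp))
      have h2 := (hsD (ptOf 2) (by rw [hD]; simp)).resolve_right (hcon _ (by rw [hD]; simp))
      have := s.injective (h1.trans h2.symm)
      revert this; decide +kernel
    have h3 := hsD _ (hinv _ hv p hp)
    rw [Equiv.Perm.mul_apply, Equiv.Perm.mul_apply, hsp,
      show s (s⁻¹ (u (ptOf 0))) = u (ptOf 0) from s.apply_symm_apply _] at h3
    refine h3.resolve_left fun e => ?_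
    have := u.injective (e.trans ((k : L).2.2 : u x0 = x0).symm)
    revert this; decide +kernel
  -- the orbit of `ptOf 0` has at most two points
  set O := orbitFin L (ptOf 0) with hO
  have hOle : O.card ≤ 2 := by
    have h1 := card_eq_orbitFin_mul L (ptOf 0)
    have h2 : Nat.card Ker ≤ Nat.card ↥(L ⊓ MulAction.stabilizer (Equiv.Perm GolayPt) (ptOf 0)) :=
      Nat.card_le_card_of_injective
        (fun k => (⟨((k : L) : Equiv.Perm GolayPt), (k : L).2, hker k⟩ :
          ↥(L ⊓ MulAction.stabilizer (Equiv.Perm GolayPt) (ptOf 0))))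
        fun u v e => Subtype.ext (Subtype.ext (congrArg (fun w => w.1) e))
    have h3 := Subgroup.index_mul_card Ker
    rw [← hO] at h1
    have hpos : 0 < Nat.card Ker := Nat.card_pos
    nlinarith
  have h21 : O.card = 21 := by
    rw [hO, hL, horb (ptOf 0) (by decide +kernel), cand_card]
    rfl
  omega

/-- The octad through the first point is a block. -/
theorem Setup.no_block_eight (S : Setup K N)
    (h : ∀ k ∈ K, k x0 = x0 → ∀ p ∈ cand false false false, k p ∈ cand false false false) :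
    False := by
  classical
  have hx : x0 ∈ oct0 := (cand_sets.1 _).2 (Or.inl rfl)
  have hinv : ∀ k ∈ K, k x0 = x0 → ∀ p ∈ oct0, k p ∈ oct0 := fun k hk hk0 p hp => by
    rcases (cand_sets.1 p).1 hp with rfl | hp
    · rw [hk0]; exact hx
    · exact (cand_sets.1 _).2 (Or.inr (inv_compl h k hk hk0 p hp))
  have hblock := block_of_inv oct0 hinv fun p hp => by
    obtain ⟨s, hs, es⟩ := flag_orbit_octad ((flag_facts.1 p).1 hp)
    refine ⟨s, S.flag hs, es.trans (M24.ptOf_ptIdx p), ?_⟩
    exact smul_eq_of_inv (K := flagGroup) (fun k hk => flag_maps_octad hk) hs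
  have hb := blocks_mul_card hx hblock S.trans
  rw [(mem_octads_iff.mp oct0_mem).2] at hb
  obtain ⟨g, hg⟩ : ∃ g : K, orderOf g = 5 := by
    have : Fact (Nat.Prime 5) := ⟨by norm_num⟩
    refine exists_prime_orderOf_dvd_card' 5 ?_
    rw [S.card]
    rcases S.orders with h | h | h <;> rw [h] <;> norm_num
  rw [← Subgroup.orderOf_coe] at hg
  have : Fact (Nat.Prime 5) := ⟨by norm_num⟩
  have h5 := fix_count (p := 5) hblock hg (fix_block (by norm_num) (by omega) g.2 hg)
  rw [(mem_octads_iff.mp oct0_mem).2, show (blocks K oct0).card = 3 by omega] at h5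
  have := card_fixSet_le_four (S.le g.2) (p := 5) (by norm_num) le_rfl hg
  omega

theorem card_oct0_sdiff_quad : (oct0 \ quad).card = 4 := by decide +kernel

/-- In the tetrad case the blocks form a sextet. -/
theorem Setup.sextet_case (S : Setup K N)
    (h : ∀ k ∈ K, k x0 = x0 → ∀ p ∈ cand false false true, k p ∈ cand false false true) :
    N = 138240 ∧ ∃ T ∈ sextets, ∀ k ∈ K, k • T = T := by
  classical
  have hx : x0 ∈ quad := quad_idx.2.1
  have hinv : ∀ k ∈ K, k x0 = x0 → ∀ p ∈ quad, k p ∈ quad := fun k hk hk0 p hp => by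
    rcases (cand_sets.2.1 p).1 hp with rfl | hp
    · rw [hk0]; exact hx
    · exact (cand_sets.2.1 _).2 (Or.inr (inv_compl h k hk hk0 p hp))
  have hblock := block_of_inv quad hinv fun p hp => by
    obtain ⟨s, hs, es⟩ := flag_orbit_octad ((quad_idx.1 p).1 hp).1
    rw [M24.ptOf_ptIdx] at es
    exact ⟨s, S.flag hs, es, flag_quad hs (es ▸ hp)⟩
  have hb := blocks_mul_card hx hblock S.trans
  rw [flag_facts.2.1] at hb
  have h6 : (blocks K quad).card = 6 := by omega
  have hN : N = 138240 := by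
    rcases S.orders with e | e | e
    swap
    · exact e
    all_goals
      exfalso
      have : Fact (Nat.Prime 7) := ⟨by norm_num⟩
      obtain ⟨g, hg⟩ : ∃ g : K, orderOf g = 7 :=
        exists_prime_orderOf_dvd_card' 7 (by rw [S.card, e]; norm_num)
      rw [← Subgroup.orderOf_coe] at hg
      have h7 := fix_count (p := 7) hblock hg (fix_block (by norm_num) (by omega) g.2 hg)
      rw [flag_facts.2.1, h6] at h7
      have := card_fixSet_le_four (S.le g.2) (p := 7) (by norm_num) (by norm_num) hg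
      omega
  refine ⟨hN, blocks K quad, ?_, fun k hk => ?_⟩
  swap
  · refine Finset.eq_of_subset_of_card_le (fun C hC => ?_) (Finset.card_smul_finset _ _).ge
    obtain ⟨D, hD, rfl⟩ := Finset.mem_smul_finset.mp hC
    obtain ⟨l, hl, rfl⟩ := mem_blocks.1 hD
    exact mem_blocks.2 ⟨k * l, mul_mem hk hl, mul_smul k l quad⟩
  -- the pointwise stabiliser of the tetrad lies in the subgroup
  have hKB : 24 * 960 = Nat.card ↥(K ⊓ MulAction.stabilizer (Equiv.Perm GolayPt) quad) := by
    set A := K ⊓ MulAction.stabilizer (Equiv.Perm GolayPt) quad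
    rw [card_eq_orbit_mul A x0 quad (fun g hg => apply_mem_of_smul_eq hg.2 hx) (fun p hp => by
        obtain ⟨s, hs, es⟩ := flag_orbit_octad ((quad_idx.1 p).1 hp).1
        rw [M24.ptOf_ptIdx] at es
        exact ⟨s, Subgroup.mem_inf.2 ⟨S.flag hs, flag_quad hs (es ▸ hp)⟩, es⟩),
      flag_facts.2.1]
    have e : A ⊓ MulAction.stabilizer (Equiv.Perm GolayPt) x0 =
        K ⊓ MulAction.stabilizer (Equiv.Perm GolayPt) x0 := by
      refine le_antisymm (inf_le_inf_right _ inf_le_left) fun g hg => ?_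
      refine Subgroup.mem_inf.2 ⟨Subgroup.mem_inf.2 ⟨hg.1, MulAction.mem_stabilizer_iff.2 ?_⟩, hg.2⟩
      refine Finset.eq_of_subset_of_card_le (fun q hq => ?_) (Finset.card_smul_finset _ _).ge
      obtain ⟨r, hr, rfl⟩ := Finset.mem_smul_finset.mp hq
      exact hinv g hg.1 hg.2 r hr
    rw [e]
    have := S.card_stab
    omega
  have hchain : chainStab Cfsg.M24 4 ≤ K := by
    set A := K ⊓ MulAction.stabilizer (Equiv.Perm GolayPt) quad
    have hAinv : ∀ k ∈ A, ∀ p ∈ quad, k p ∈ quad := fun k hk p hp => apply_mem_of_smul_eq hk.2 hp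
    set Ker := (invHom A quad hAinv).ker
    have hidx : Ker.index ≤ 24 := by
      rw [Subgroup.index_ker]
      refine (Subgroup.card_le_card_group _).trans ?_
      rw [Nat.card_perm, Nat.card_eq_finsetCard, flag_facts.2.1]
      decide
    set F := Ker.map A.subtype
    have hF : F ≤ chainStab Cfsg.M24 4 := by
      rintro _ ⟨k, hk, rfl⟩
      exact mem_chainStab.2 ⟨S.le k.2.1, fun j hj =>
        congrArg Subtype.val (Equiv.ext_iff.mp (MonoidHom.mem_ker.1 hk) ⟨_, quad_base.1 j hj⟩)⟩
    have hcF : 960 ≤ Nat.card F := by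
      rw [Subgroup.card_map_of_injective A.subtype_injective]
      have hmul := Subgroup.index_mul_card Ker
      rw [← hKB] at hmul
      by_contra hlt
      have : Ker.index * Nat.card Ker ≤ 24 * 959 := Nat.mul_le_mul hidx (by omega)
      omega
    rw [← Subgroup.eq_of_le_of_card_ge hF (by rw [card_chain_four]; exact hcF)]
    rintro _ ⟨k, -, rfl⟩
    exact k.2.1
  -- a second block completes an octad
  have hpair : ∀ C ∈ blocks K quad, C ≠ quad → quad ∪ C ∈ octads := by
    intro C hC hne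
    have hd := blocks_disjoint hblock C hC quad
      (mem_blocks.2 ⟨1, one_mem K, one_smul _ _⟩) hne
    have hCc : C.card = 4 := by
      obtain ⟨k, -, rfl⟩ := mem_blocks.1 hC
      rw [Finset.card_smul_finset, flag_facts.2.1]
    obtain ⟨y, hy⟩ := Finset.card_pos.mp (show 0 < C.card by omega)
    have hyq : y ∉ quad := Finset.disjoint_left.mp hd hy
    obtain ⟨a, ha, hab⟩ : ∃ a ∈ Cfsg.M24, ∀ i < 5, a ((if i = 4 then y else basePt i)) = basePt i := by
      refine exists_to_base (by norm_num) _ fun j hj g hg hfix => ?_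
      rw [IsTarget, if_pos (by omega)]
      intro i hi e
      rw [← hfix i hi] at e
      have e' := g.injective e
      by_cases hj4 : j = 4
      · rw [if_pos hj4, if_neg (by omega)] at e'
        exact hyq (e' ▸ quad_base.1 i (by omega))
      · rw [if_neg hj4, if_neg (by omega)] at e'
        have : ∀ u < 4, ∀ v < 4, basePt u = basePt v → u = v := by decide +kernel
        have := this j (by omega) i (by omega) e'
        omega
    have ha4 : a ∈ chainStab Cfsg.M24 4 := mem_chainStab.2 ⟨ha, fun j hj => by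
      have := hab j (by omega); rwa [if_neg (by omega)] at this⟩
    have hay : a y = basePt 4 := by have := hab 4 (by norm_num); rwa [if_pos rfl] at this
    have haK := hchain ha4
    set D := a • C
    have hDb : D ∈ blocks K quad := by
      obtain ⟨k, hk, rfl⟩ := mem_blocks.1 hC
      exact mem_blocks.2 ⟨a * k, mul_mem haK hk, mul_smul a k quad⟩
    have h4D : basePt 4 ∈ D := hay ▸ Finset.smul_mem_smul_finset hy
    have haq : a • quad = quad := by
      refine Finset.eq_of_subset_of_card_le (fun q hq => ?_) (Finset.card_smul_finset _ _).ge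
      obtain ⟨r, hr, rfl⟩ := Finset.mem_smul_finset.mp hq
      obtain ⟨j, hj, rfl⟩ := quad_base.2 r hr
      rw [Equiv.Perm.smul_def, (mem_chainStab.mp ha4).2 j hj]
      exact hr
    have hDq : Disjoint D quad := by
      rw [← haq]
      exact Finset.disjoint_left.2 fun q h1 h2 => by
        obtain ⟨r, hr, rfl⟩ := Finset.mem_smul_finset.mp h1
        exact Finset.disjoint_left.mp hd hr ((Finset.smul_mem_smul_finset_iff a).mp h2)
    have hDc : D.card = 4 := by rw [Finset.card_smul_finset, hCc]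
    -- the five points have only the octad as invariant extension
    have h6mem : chainStab Cfsg.M24 6 ≤ K := fun g hg => hchain (mem_chainStab.2
      ⟨(mem_chainStab.mp hg).1, fun j hj => (mem_chainStab.mp hg).2 j (by omega)⟩)
    have h5K : chainStab Cfsg.M24 5 ≤ K := fun g hg => hchain (mem_chainStab.2
      ⟨(mem_chainStab.mp hg).1, fun j hj => (mem_chainStab.mp hg).2 j (by omega)⟩)
    have hgD : ∀ g ∈ chainStab Cfsg.M24 5, g • D = D := by
      intro g hg
      by_contra hne'
      have hgb : g • D ∈ blocks K quad := by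
        obtain ⟨k, hk, e⟩ := mem_blocks.1 hDb
        exact mem_blocks.2 ⟨g * k, mul_mem (h5K hg) hk, by rw [mul_smul, e]⟩
      refine Finset.disjoint_left.mp (blocks_disjoint hblock _ hgb _ hDb hne') ?_ h4D
      rw [← (mem_chainStab.mp hg).2 4 (by norm_num)]
      exact Finset.smul_mem_smul_finset h4D
    have hDsub : D ⊆ oct0 \ quad := by
      intro z hz
      rw [Finset.mem_sdiff]
      refine ⟨?_, Finset.disjoint_left.mp hDq hz⟩
      by_contra hzo
      -- the orbit of a point outside the octad is too large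
      have hall : ∀ w, w ∉ oct0 → w ∈ D := by
        have hone : ∀ w, w ∉ oct0 → ∃ g ∈ chainStab Cfsg.M24 5, g (basePt 6) = w := by
          intro w hw
          obtain ⟨g, hg, e⟩ := exists_chainStab_move (H := Cfsg.M24) gen3_le (k := 6)
            (by norm_num) (y := w) (by rw [IsTarget, if_neg (by norm_num), if_neg (by norm_num)];
                                       exact hw)
          exact ⟨g, mem_chainStab.2 ⟨(mem_chainStab.mp hg).1,
            fun j hj => (mem_chainStab.mp hg).2 j (by omega)⟩, e⟩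
        intro w hw
        obtain ⟨g, hg, e⟩ := hone z hzo
        obtain ⟨g', hg', e'⟩ := hone w hw
        have h6 : basePt 6 ∈ D := by
          have := apply_mem_of_smul_eq (hgD _ (inv_mem hg)) hz
          rwa [show g⁻¹ z = basePt 6 by rw [← e]; exact g.symm_apply_apply _] at this
        exact e' ▸ apply_mem_of_smul_eq (hgD _ hg') h6
      have : (oct0ᶜ).card ≤ D.card := Finset.card_le_card fun w hw =>
        hall w (Finset.mem_compl.mp hw)
      rw [hDc, Finset.card_compl, card_golayPt, (mem_octads_iff.mp oct0_mem).2] at this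
      omega
    have hDeq : D = oct0 \ quad :=
      Finset.eq_of_subset_of_card_le hDsub (by rw [hDc, card_oct0_sdiff_quad])
    have hu : quad ∪ D = oct0 := by
      rw [hDeq, Finset.union_sdiff_of_subset flag_facts.2.2]
    have := smul_mem_octads (inv_mem ha) (hu ▸ oct0_mem : quad ∪ D ∈ octads)
    rwa [Finset.smul_finset_union, inv_smul_smul,
      show a⁻¹ • quad = quad from inv_smul_eq_iff.2 haq.symm] at this
  refine ⟨h6, fun t ht => ?_, fun t ht u hu hne => ?_⟩
  · obtain ⟨k, -, rfl⟩ := mem_blocks.1 ht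
    rw [Finset.card_smul_finset, flag_facts.2.1]
  · obtain ⟨k, hk, rfl⟩ := mem_blocks.1 ht
    obtain ⟨l, hl, rfl⟩ := mem_blocks.1 hu
    have := hpair ((k⁻¹ * l) • quad) (mem_blocks.2 ⟨_, mul_mem (inv_mem hk) hl, rfl⟩)
      (fun e => hne (by rw [mul_smul, inv_smul_eq_iff] at e; exact e.symm))
    have h2 := smul_mem_octads (S.le hk) this
    rwa [Finset.smul_finset_union, mul_smul, smul_inv_smul] at h2

/-- The classification of the overgroups. -/
theorem overgroup_cases (hle : K ≤ Cfsg.M24) (hflag : flagGroup ≤ K) (hN : Nat.card K = N)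
    (hor : N = 322560 ∨ N = 138240 ∨ N = 967680) :
    (N = 322560 ∧ ∀ k ∈ K, k • oct0 = oct0) ∨
      (N = 138240 ∧ ∃ T ∈ sextets, ∀ k ∈ K, k • T = T) := by
  classical
  have hoct : ∀ p ∈ oct0, ∃ k ∈ K, k x0 = p := fun p hp => by
    obtain ⟨s, hs, es⟩ := flag_orbit_octad ((flag_facts.1 p).1 hp)
    exact ⟨s, hflag hs, es.trans (M24.ptOf_ptIdx p)⟩
  have hrest : ∀ {p q : GolayPt}, p ∉ oct0 → q ∉ oct0 → ∃ k ∈ K, k p = q := by
    intro p q hp hq
    rw [flag_facts.1] at hp hq
    obtain ⟨g, hg, e, -⟩ := flag_moves_rest (ptIdx_lt p) hp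
    obtain ⟨g', hg', e', -⟩ := flag_moves_rest (ptIdx_lt q) hq
    rw [M24.ptOf_ptIdx] at e e'
    refine ⟨g' * g⁻¹, mul_mem (hflag hg') (inv_mem (hflag hg)), ?_⟩
    rw [Equiv.Perm.mul_apply, ← e, show g⁻¹ (g (ptOf 4)) = ptOf 4 from g.symm_apply_apply _, e']
  by_cases hint : ∀ k ∈ K, ∀ p ∈ oct0, k p ∈ oct0
  · left
    have hfix : ∀ k ∈ K, k • oct0 = oct0 := fun k hk => smul_eq_of_inv hint hk
    refine ⟨?_, hfix⟩
    have hsub : K ≤ M24Geo.octStab oct0 := fun k hk => M24Geo.mem_octStab.2 ⟨hle hk, hfix k hk⟩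
    have hd := Subgroup.card_dvd_of_le hsub
    rw [hN, M24Geo.card_octStab oct0_mem] at hd
    rcases hor with e | e | e
    · exact e
    all_goals
      subst e
      norm_num at hd
  right
  push Not at hint
  obtain ⟨k, hk, p, hp, hkp⟩ := hint
  obtain ⟨u, hu, eu⟩ := hoct p hp
  have htrans : ∀ q, ∃ l ∈ K, l x0 = q := by
    intro q
    by_cases hq : q ∈ oct0
    · exact hoct q hq
    obtain ⟨v, hv, ev⟩ := hrest hkp hq
    exact ⟨v * k * u, mul_mem (mul_mem hv hk) hu, by
      rw [Equiv.Perm.mul_apply, eu, Equiv.Perm.mul_apply, ev]⟩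
  have S : Setup K N := ⟨hle, hflag, hN, hor, htrans⟩
  obtain ⟨bc, ba, bq, hdvd, hinv, horb⟩ := S.exists_cand
  rw [cand_card] at hdvd
  have hm : N / 24 ∈ ([13440, 5760, 40320] : List ℕ) := by
    rcases hor with rfl | rfl | rfl <;> simp
  have hc := cand_sizes _ hm bc ba bq (Nat.mod_eq_zero_of_dvd hdvd)
  simp only [List.mem_cons, Prod.mk.injEq, List.not_mem_nil, or_false] at hc
  rcases hc with ⟨rfl, rfl, rfl⟩ | ⟨rfl, rfl, rfl⟩ | ⟨rfl, rfl, rfl⟩ | ⟨rfl, rfl, rfl⟩
  · exact (S.no_block_eight hinv).elim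
  · exact (S.no_pentad hinv).elim
  · exact S.sextet_case hinv
  · exact (S.no_pair hinv horb).elim

end Cfsg.Agent.M24Sub
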