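import Cfsg.Agent.M24Geo.Orbit

/-! The pointwise stabiliser of the reference octad (data found by a search outside of Lean; every property is checked in the files using it). -/

set_option autoImplicit false

namespace Cfsg.Agent.M24Sub

open Cfsg.Agent.M24Geo

/-- The sixteen elements fixing the reference octad pointwise. -/
def octKerList : List (List ℕ) :=
  [[0, 1, 2, 3, 4, 5, 6, 7, 8, 9, 10, 11, 12, 13, 14, 15, 16, 17, 18, 19, 20, 21, 22, 23],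
    [0, 1, 2, 3, 4, 7, 6, 5, 23, 21, 13, 12, 11, 10, 20, 15, 19, 22, 18, 16, 14, 9, 17, 8],
    [0, 1, 2, 3, 4, 8, 6, 23, 5, 16, 12, 13, 10, 11, 22, 15, 9, 20, 18, 21, 17, 19, 14, 7],
    [0, 1, 2, 3, 4, 9, 6, 21, 16, 5, 22, 20, 14, 17, 12, 15, 8, 13, 18, 23, 11, 7, 10, 19],
    [0, 1, 2, 3, 4, 10, 6, 13, 12, 22, 5, 23, 8, 7, 16, 15, 14, 21, 18, 20, 19, 17, 9, 11],
    [0, 1, 2, 3, 4, 11, 6, 12, 13, 20, 23, 5, 7, 8, 21, 15, 17, 16, 18, 22, 9, 14, 19, 10],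
    [0, 1, 2, 3, 4, 12, 6, 11, 10, 14, 8, 7, 5, 23, 9, 15, 22, 19, 18, 17, 21, 20, 16, 13],
    [0, 1, 2, 3, 4, 13, 6, 10, 11, 17, 7, 8, 23, 5, 19, 15, 20, 9, 18, 14, 16, 22, 21, 12],
    [0, 1, 2, 3, 4, 14, 6, 20, 22, 12, 16, 21, 9, 19, 5, 15, 10, 23, 18, 13, 7, 11, 8, 17],
    [0, 1, 2, 3, 4, 16, 6, 19, 9, 8, 14, 17, 22, 20, 10, 15, 5, 11, 18, 7, 13, 23, 12, 21],
    [0, 1, 2, 3, 4, 17, 6, 22, 20, 13, 21, 16, 19, 9, 23, 15, 11, 5, 18, 12, 8, 10, 7, 14],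
    [0, 1, 2, 3, 4, 19, 6, 16, 21, 23, 20, 22, 17, 14, 13, 15, 7, 12, 18, 5, 10, 8, 11, 9],
    [0, 1, 2, 3, 4, 20, 6, 14, 17, 11, 19, 9, 21, 16, 7, 15, 13, 8, 18, 10, 5, 12, 23, 22],
    [0, 1, 2, 3, 4, 21, 6, 9, 19, 7, 17, 14, 20, 22, 11, 15, 23, 10, 18, 8, 12, 5, 13, 16],
    [0, 1, 2, 3, 4, 22, 6, 17, 14, 10, 9, 19, 16, 21, 8, 15, 12, 7, 18, 11, 23, 13, 5, 20],
    [0, 1, 2, 3, 4, 23, 6, 8, 7, 19, 11, 10, 13, 12, 17, 15, 21, 14, 18, 9, 22, 16, 20, 5]]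

end Cfsg.Agent.M24Sub
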