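import Cfsg.Agent.M24Geo.Orbit

/-! Orbits of the stabiliser of an octad and a trio through it on the trios through the octad (data found by a search outside of Lean; every property is checked in the files using it). -/

set_option autoImplicit false

namespace Cfsg.Agent.M24Sub

open Cfsg.Agent.M24Geo

/-- Generators for `trioPairs`. -/
def trioPairsGens : List (List ℕ) :=
  [[6, 18, 2, 0, 4, 10, 3, 5, 12, 13, 22, 16, 14, 9, 20, 1, 11, 21, 15, 23, 19, 7, 17, 8],
    [4, 18, 3, 1, 0, 13, 6, 7, 14, 8, 9, 11, 23, 22, 10, 15, 21, 19, 2, 17, 5, 12, 20, 16]]

/-- Orbit representatives for `trioPairs`. -/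
def trioPairsRoots : List ℕ := [4449133104813643694175, 4285733512872762572895]

set_option maxRecDepth 20000 in
/-- Orbit certificate `trioPairs`. -/
def trioPairsTree : OT :=
  (.node (.node (.node (.node .leaf 2365623926190808268895 0 3117761047927831429215 3 .leaf) 2553874379394292940895 1 3567895803853388677215 3 (.node .leaf 2713292789501875486815 1 4285733512872762572895 1 .leaf)) 2828765077064969912415 1 4170909743617354793055 3 (.node (.node .leaf 3012304765339008532575 1 2828765077064969912415 4 .leaf) 3117761047927831429215 1 2713292789501875486815 2 (.node .leaf 3254048971727923609695 0 2553874379394292940895 4 .leaf))) 3434012802110967808095 0 2365623926190808268895 4 (.node (.node (.node .leaf 3567895803853388677215 0 3878545080434009866335 2 .leaf) 3747355231108232151135 1 2553874379394292940895 4 (.node .leaf 3878545080434009866335 0 4285733512872762572895 1 .leaf)) 3985514572407434936415 0 4170909743617354793055 3 (.node (.node .leaf 4170909743617354793055 1 3878545080434009866335 2 .leaf) 4285733512872762572895 0 0 0 (.node .leaf 4449133104813643694175 0 0 0 .leaf))))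

end Cfsg.Agent.M24Sub
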