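import Cfsg.Agent.M24Sub.Classify
import Cfsg.Agent.M24Geo.Small
import Cfsg.Agent.Golay.IndexM22
import Cfsg.Agent.BlockOne.NoDefectZero

/-!
The subgroups of M24 of index 759, 276, 1771 and 253.
-/

set_option autoImplicit false

namespace Cfsg.Agent.M24Sub

open Cfsg Cfsg.Agent.Golay
open scoped Pointwise

/-- A subgroup of the index of an orbit inside the stabiliser is the stabiliser. -/
theorem eq_stabilizer_of_index {α : Type*} [MulAction (Equiv.Perm GolayPt) α] (u : α)
    (H : Subgroup ↥Cfsg.M24) (hH : ∀ h ∈ H, h • u = u)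
    (hidx : H.index = (MulAction.orbit Cfsg.M24 u).ncard) :
    H = MulAction.stabilizer Cfsg.M24 u := by
  have hle : H ≤ MulAction.stabilizer Cfsg.M24 u := fun h hh => MulAction.mem_stabilizer_iff.2 (hH h hh)
  refine le_antisymm hle (Subgroup.relIndex_eq_one.1 ?_)
  have h1 := Subgroup.relIndex_mul_index hle
  rw [MulAction.index_stabilizer, ← hidx] at h1
  exact Nat.eq_of_mul_eq_mul_right (Nat.pos_of_ne_zero H.index_ne_zero_of_finite)
    (h1.trans (one_mul _).symm)

/-- A subgroup with order divisible by 1024 has a conjugate containing the flag group. -/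
theorem exists_conj_flag (K : Subgroup (Equiv.Perm GolayPt)) (hle : K ≤ Cfsg.M24)
    (hd : 1024 ∣ Nat.card K) :
    ∃ g ∈ Cfsg.M24, flagGroup ≤ K.map (MulAut.conj g).toMonoidHom := by
  have : Fact (Nat.Prime 2) := ⟨Nat.prime_two⟩
  obtain ⟨P, hP⟩ := Sylow.exists_subgroup_card_pow_prime 2 (G := K) (n := 10) (by simpa using hd)
  have hfl : flagGroup ≤ Cfsg.M24 := fun g hg => hg.1
  have hfac : (Nat.card Cfsg.M24).factorization 2 = 10 := by
    rw [Golay.card_M24, show (244823040 : ℕ) = 2 ^ 10 * 239085 from rfl,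
      Nat.factorization_mul (by norm_num) (by norm_num), Finsupp.add_apply,
      Nat.Prime.factorization_pow Nat.prime_two, Finsupp.single_eq_same,
      Nat.factorization_eq_zero_of_not_dvd (by norm_num)]
  let A : Sylow 2 Cfsg.M24 := Sylow.ofCard (flagGroup.subgroupOf Cfsg.M24) (by
    rw [Nat.card_congr (Subgroup.subgroupOfEquivOfLe hfl).toEquiv, card_flagGroup, hfac]; rfl)
  have hPle : P.map K.subtype ≤ Cfsg.M24 := fun x hx => by
    obtain ⟨y, -, rfl⟩ := hx; exact hle y.2
  let B : Sylow 2 Cfsg.M24 := Sylow.ofCard ((P.map K.subtype).subgroupOf Cfsg.M24) (by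
    rw [Nat.card_congr (Subgroup.subgroupOfEquivOfLe hPle).toEquiv,
      Subgroup.card_map_of_injective K.subtype_injective, hP, hfac])
  obtain ⟨c, hc⟩ := MulAction.exists_smul_eq Cfsg.M24 B A
  refine ⟨(c : Equiv.Perm GolayPt), c.2, fun x hx => ?_⟩
  have hxA : (⟨x, hfl hx⟩ : Cfsg.M24) ∈ (A : Subgroup Cfsg.M24) := hx
  rw [← hc] at hxA
  obtain ⟨y, hy, e⟩ := hxA
  obtain ⟨z, -, ez⟩ := hy
  have hzy : (z : Equiv.Perm GolayPt) = (y : Equiv.Perm GolayPt) := ez
  refine ⟨(y : Equiv.Perm GolayPt), hzy ▸ z.2, ?_⟩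
  exact congrArg Subtype.val e

theorem smul_of_conj {α : Type*} [MulAction (Equiv.Perm GolayPt) α] {H : Subgroup ↥Cfsg.M24}
    {g : Equiv.Perm GolayPt} (u : α)
    (h : ∀ k ∈ (H.map Cfsg.M24.subtype).map (MulAut.conj g).toMonoidHom, k • u = u) :
    ∀ k ∈ H, k • (g⁻¹ • u) = g⁻¹ • u := by
  intro k hk
  have := h (g * (k : Equiv.Perm GolayPt) * g⁻¹)
    ⟨(k : Equiv.Perm GolayPt), ⟨k, hk, rfl⟩, rfl⟩
  show (k : Equiv.Perm GolayPt) • (g⁻¹ • u) = g⁻¹ • u
  rw [eq_inv_smul_iff, ← mul_smul, ← mul_smul, this]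

theorem sextet_orbit_ncard {S : Finset (Finset GolayPt)} (hS : S ∈ sextets) :
    (MulAction.orbit Cfsg.M24 S).ncard = 1771 :=
  (congrArg Set.ncard (M24Geo.sextetFamily.orbit_eq hS)).trans M24Geo.sextets_ncard

theorem octad_orbit_ncard {o : Finset GolayPt} (ho : o ∈ octads) :
    (MulAction.orbit Cfsg.M24 o).ncard = 759 :=
  (congrArg Set.ncard (M24Geo.octadFamily.orbit_eq ho)).trans Golay.ncard_octads

theorem duad_orbit_ncard {s : Finset GolayPt} (hs : s.card = 2) :
    (MulAction.orbit Cfsg.M24 s).ncard = 276 := by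
  rw [show MulAction.orbit Cfsg.M24 s = {t : Finset GolayPt | t.card = 2} from
    M24Geo.duadFamily.orbit_eq hs]
  have e : {t : Finset GolayPt | t.card = 2} =
      ↑((Finset.univ : Finset GolayPt).powersetCard 2) := by
    ext t; simp
  rw [e, Set.ncard_coe_finset, Finset.card_powersetCard, Finset.card_univ, card_golayPt]
  decide

/-- The three indices through a Sylow 2-subgroup. -/
theorem index_cases_two (H : Subgroup ↥Cfsg.M24)
    (hn : H.index = 759 ∨ H.index = 1771 ∨ H.index = 253) :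
    (H.index = 759 ∧ ∃ o ∈ octads, H = MulAction.stabilizer Cfsg.M24 o) ∨
      (H.index = 1771 ∧ ∃ S ∈ sextets, H = MulAction.stabilizer Cfsg.M24 S) := by
  set K := H.map Cfsg.M24.subtype with hK
  have hKle : K ≤ Cfsg.M24 := fun x hx => by obtain ⟨y, -, rfl⟩ := hx; exact y.2
  have hmul := Subgroup.index_mul_card H
  rw [Golay.card_M24] at hmul
  have hcK : Nat.card K = Nat.card H := Subgroup.card_map_of_injective Cfsg.M24.subtype_injective
  have hcases : Nat.card H = 322560 ∨ Nat.card H = 138240 ∨ Nat.card H = 967680 := by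
    rcases hn with e | e | e <;> rw [e] at hmul <;> omega
  obtain ⟨g, hg, hflag⟩ := exists_conj_flag K hKle (by
    rw [hcK]; rcases hcases with e | e | e <;> rw [e] <;> norm_num)
  set K' := K.map (MulAut.conj g).toMonoidHom with hK'
  have hK'le : K' ≤ Cfsg.M24 := fun x hx => by
    obtain ⟨y, hy, rfl⟩ := hx
    exact mul_mem (mul_mem hg (hKle hy)) (inv_mem hg)
  have hcK' : Nat.card K' = Nat.card H := by
    rw [hK', Subgroup.card_map_of_injective (MulAut.conj g).injective, hcK]
  rcases overgroup_cases hK'le hflag hcK' hcases with ⟨e, h⟩ | ⟨e, T, hT, h⟩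
  · rw [e] at hmul
    have hi : H.index = 759 := by omega
    exact Or.inl ⟨hi, g⁻¹ • oct0, smul_mem_octads (inv_mem hg) oct0_mem,
      eq_stabilizer_of_index _ H (smul_of_conj oct0 h)
        (by rw [hi, octad_orbit_ncard (smul_mem_octads (inv_mem hg) oct0_mem)])⟩
  · rw [e] at hmul
    have hi : H.index = 1771 := by omega
    exact Or.inr ⟨hi, g⁻¹ • T, M24Geo.smul_mem_sextets (inv_mem hg) hT,
      eq_stabilizer_of_index _ H (smul_of_conj T h)
        (by rw [hi, sextet_orbit_ncard (M24Geo.smul_mem_sextets (inv_mem hg) hT)])⟩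

theorem orbit_sizes_887040 : ∀ m < 25, 887040 % m = 0 → 23 * m % 2 = 0 → m % 11 ≤ 2 → m % 7 ≤ 3 →
    m = 2 ∨ m = 22 ∨ m = 24 := by
  intro m hm h1 h2 h3 h4
  interval_cases m <;> omega

theorem orbit_sizes_36960 : ∀ m < 24, 36960 % m = 0 → m % 11 ≤ 1 → m % 7 ≤ 2 →
    m = 1 ∨ m = 22 := by
  intro m hm h1 h2 h3
  interval_cases m <;> omega

/-- M22 has no subgroup of order 36960. -/
theorem no_order_36960 (H : Subgroup Spor.M22) : Nat.card H ≠ 36960 := by
  intro hH
  have : Fact (Nat.Prime 7) := ⟨by norm_num⟩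
  obtain ⟨x, hx⟩ := exists_prime_orderOf_dvd_card' (G := H) 7 (by rw [hH]; norm_num)
  have hx' : orderOf (x : Spor.M22) = 7 := by rw [Subgroup.orderOf_coe]; exact hx
  have hp2 : ¬7 ^ 2 ∣ Nat.card Spor.M22 := by rw [card_M22]; norm_num
  have hpH : ¬7 ^ 2 ∣ Nat.card H := by rw [hH]; norm_num
  -- the number of Sylow subgroups of the whole group
  obtain ⟨y, hy, hC⟩ := BlockOne.m22_seven
  obtain ⟨h, hh, hNy⟩ := BlockOne.card_normalizer_dvd hy
  obtain ⟨Py, hPy⟩ := exists_sylow_zpowers y hy hp2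
  obtain ⟨Px, hPx⟩ := exists_sylow_zpowers (x : Spor.M22) hx' hp2
  have hG := Subgroup.index_mul_card (Subgroup.normalizer ((Py : Subgroup Spor.M22) : Set Spor.M22))
  rw [← (show Nat.card (Sylow 7 Spor.M22) =
      (Subgroup.normalizer ((Py : Subgroup Spor.M22) : Set Spor.M22)).index from Sylow.card_eq_index_normalizer Py), hPy, hNy, hC, card_M22] at hG
  have hmodG := card_sylow_modEq_one 7 Spor.M22
  have h3 : h = 3 := by
    have hle : h ≤ 6 := Nat.le_of_dvd (by norm_num) hh
    have h0 : 0 < h := Nat.pos_of_ne_zero fun e => by rw [e] at hh; norm_num at hh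
    have hm : Nat.card (Sylow 7 Spor.M22) % 7 = 1 := hmodG
    interval_cases h <;> omega
  have hNx : Nat.card (Subgroup.normalizer ((Px : Subgroup Spor.M22) : Set Spor.M22)) = 21 := by
    have h1 := Subgroup.index_mul_card (Subgroup.normalizer ((Px : Subgroup Spor.M22) : Set Spor.M22))
    rw [← (show Nat.card (Sylow 7 Spor.M22) =
      (Subgroup.normalizer ((Px : Subgroup Spor.M22) : Set Spor.M22)).index from Sylow.card_eq_index_normalizer Px), card_M22] at h1
    rw [h3] at hG
    have hpos : 0 < Nat.card (Sylow 7 Spor.M22) := Nat.card_pos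
    nlinarith
  obtain ⟨Q, hQ⟩ := exists_sylow_zpowers x hx hpH
  set NH := Subgroup.normalizer ((Q : Subgroup H) : Set H) with hNH
  have hmap : (Q : Subgroup H).map H.subtype = (Px : Subgroup Spor.M22) := by
    rw [hQ, hPx, MonoidHom.map_zpowers]; rfl
  have hd : Nat.card NH ∣ 21 := by
    rw [← hNx, ← Subgroup.card_map_of_injective H.subtype_injective]
    exact Subgroup.card_dvd_of_le (hmap ▸ Subgroup.le_normalizer_map H.subtype)
  have hidx := Subgroup.index_mul_card NH
  rw [hH, hNH, ← (show Nat.card (Sylow 7 H) =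
      (Subgroup.normalizer ((Q : Subgroup H) : Set H)).index from Sylow.card_eq_index_normalizer Q), ← hNH] at hidx
  have hm : Nat.card (Sylow 7 H) % 7 = 1 := card_sylow_modEq_one 7 H
  have hle : Nat.card NH ≤ 21 := Nat.le_of_dvd (by norm_num) hd
  generalize Nat.card NH = a at hd hidx hle
  interval_cases a <;> omega

/-- The orbit congruence. -/
theorem orbit_bound {K : Subgroup (Equiv.Perm GolayPt)} (hle : K ≤ Cfsg.M24) {p k : ℕ}
    [Fact p.Prime] (hp5 : 5 ≤ p) (hk : 24 % p = k) (hd : p ∣ Nat.card K) (a : GolayPt)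
    (Z : Finset GolayPt) (hZ : ∀ z ∈ Z, (∀ h ∈ K, h z = z) ∧ z ∉ orbitFin K a) :
    (orbitFin K a).card % p + Z.card ≤ k := by
  classical
  obtain ⟨g, hg⟩ := exists_prime_orderOf_dvd_card' (G := K) p hd
  rw [← Subgroup.orderOf_coe] at hg
  have h1 := card_mod_fix hg (orbitFin K a) fun y hy => orbitFin_inv g.2 hy
  have hdj : Disjoint Z ((orbitFin K a).filter fun y => (g : Equiv.Perm GolayPt) y = y) :=
    Finset.disjoint_left.2 fun y hy hy' => (hZ y hy).2 (Finset.mem_filter.1 hy').1
  have h2 : (Z ∪ (orbitFin K a).filter fun y => (g : Equiv.Perm GolayPt) y = y) ⊆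
      fixSet (g : Equiv.Perm GolayPt) := by
    intro y hy
    rcases Finset.mem_union.1 hy with hy | hy
    · exact mem_fixSet.2 ((hZ y hy).1 _ g.2)
    · exact mem_fixSet.2 (Finset.mem_filter.1 hy).2
  have h3 := Finset.card_le_card h2
  rw [Finset.card_union_of_disjoint hdj, card_fixSet_eq (hle g.2) hp5 hg k hk] at h3
  have h4 : ((orbitFin K a).filter fun y => (g : Equiv.Perm GolayPt) y = y).card % p ≤
      ((orbitFin K a).filter fun y => (g : Equiv.Perm GolayPt) y = y).card := Nat.mod_le _ _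
  omega

theorem index_276 (H : Subgroup ↥Cfsg.M24) (hH : H.index = 276) :
    ∃ s : Finset GolayPt, s.card = 2 ∧ H = MulAction.stabilizer Cfsg.M24 s := by
  classical
  set K := H.map Cfsg.M24.subtype with hK
  have hKle : K ≤ Cfsg.M24 := fun x hx => by obtain ⟨y, -, rfl⟩ := hx; exact y.2
  have hmul := Subgroup.index_mul_card H
  rw [Golay.card_M24, hH] at hmul
  have hcK : Nat.card K = 887040 := by
    rw [hK, Subgroup.card_map_of_injective Cfsg.M24.subtype_injective]; omega
  have : Fact (Nat.Prime 11) := ⟨by norm_num⟩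
  have : Fact (Nat.Prime 7) := ⟨by norm_num⟩
  suffices hs : ∃ s : Finset GolayPt, s.card = 2 ∧ ∀ k ∈ K, k • s = s by
    obtain ⟨s, hs, hfix⟩ := hs
    refine ⟨s, hs, eq_stabilizer_of_index s H (fun h hh => ?_) (by rw [hH, duad_orbit_ncard hs])⟩
    exact hfix _ ⟨h, hh, rfl⟩
  have hfixset : ∀ O : Finset GolayPt, (∀ k ∈ K, ∀ p ∈ O, k p ∈ O) → ∀ k ∈ K, k • O = O :=
    fun O hO k hk => smul_eq_of_inv hO hk
  -- the possible orbit sizes
  have hsize : ∀ a, (orbitFin K a).card = 2 ∨ (orbitFin K a).card = 22 ∨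
      (orbitFin K a).card = 24 := by
    intro a
    have hd := card_eq_orbitFin_mul K a
    have hle24 : (orbitFin K a).card ≤ 24 := (Finset.card_le_univ _).trans (le_of_eq card_golayPt)
    have hdvd : Nat.card ↥(K ⊓ MulAction.stabilizer (Equiv.Perm GolayPt) a) ∣ 10200960 := by
      rw [← (show Nat.card ↥(Cfsg.M24 ⊓ MulAction.stabilizer (Equiv.Perm GolayPt) a) = 10200960 from
        card_inf_stabilizer_point a)]
      exact Subgroup.card_dvd_of_le (inf_le_inf_right _ hKle)
    have h11 := orbit_bound hKle (p := 11) (k := 2) (by norm_num) rfl (by rw [hcK]; norm_num) a ∅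
      (by simp)
    have h7 := orbit_bound hKle (p := 7) (k := 3) (by norm_num) rfl (by rw [hcK]; norm_num) a ∅
      (by simp)
    rw [Finset.card_empty, add_zero] at h11 h7
    rw [hcK] at hd
    refine orbit_sizes_887040 _ (by omega)
      (Nat.mod_eq_zero_of_dvd ⟨_, hd⟩) ?_ h11 h7
    obtain ⟨e, he⟩ := hdvd
    generalize (orbitFin K a).card = m at hd
    generalize Nat.card ↥(K ⊓ MulAction.stabilizer (Equiv.Perm GolayPt) a) = t at hd he
    have h1 : 887040 * e = 10200960 * m := by rw [hd, he]; ring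
    omega
  rcases hsize none with h | h | h
  · exact ⟨_, h, hfixset _ fun k hk p hp => orbitFin_inv hk hp⟩
  · refine ⟨(orbitFin K none)ᶜ, by rw [Finset.card_compl, card_golayPt, h],
      hfixset _ fun k hk p hp => ?_⟩
    rw [Finset.mem_compl] at hp ⊢
    intro hkp
    have := orbitFin_inv (inv_mem hk) hkp
    rw [show k⁻¹ (k p) = p from k.symm_apply_apply p] at this
    exact hp this
  -- the transitive case
  exfalso
  set L := K ⊓ MulAction.stabilizer (Equiv.Perm GolayPt) (none : GolayPt) with hL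
  have hcL : Nat.card L = 36960 := by
    have := card_eq_orbitFin_mul K (none : GolayPt)
    rw [hcK, h, ← hL] at this
    omega
  have hLle : L ≤ Cfsg.M24 := inf_le_left.trans hKle
  have hLfix : ∀ g ∈ L, g none = none := fun g hg => hg.2
  have hT : ∀ g ∈ L, ∀ t ∈ ({none}ᶜ : Finset GolayPt), g t ∈ ({none}ᶜ : Finset GolayPt) := by
    intro g hg t ht
    simp only [Finset.mem_compl, Finset.mem_singleton] at ht ⊢
    exact fun e => ht (g.injective (e.trans (hLfix g hg).symm))
  have hsz : ∀ a, a ≠ none → (orbitFin L a).card = 1 ∨ (orbitFin L a).card = 22 := by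
    intro a ha
    have hsub := orbitFin_subset hT (x := a) (by simpa using ha)
    have hnn : (none : GolayPt) ∉ orbitFin L a := fun hm => by simpa using hsub hm
    have h11 := orbit_bound hLle (p := 11) (k := 2) (by norm_num) rfl (by rw [hcL]; norm_num) a
      {none} (fun z hz => by rw [Finset.mem_singleton] at hz; subst hz; exact ⟨hLfix, hnn⟩)
    have h7 := orbit_bound hLle (p := 7) (k := 3) (by norm_num) rfl (by rw [hcL]; norm_num) a
      {none} (fun z hz => by rw [Finset.mem_singleton] at hz; subst hz; exact ⟨hLfix, hnn⟩)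
    rw [Finset.card_singleton] at h11 h7
    have hlt : (orbitFin L a).card < 24 := by
      have := Finset.card_le_card hsub
      rw [Finset.card_compl, card_golayPt, Finset.card_singleton] at this
      omega
    exact orbit_sizes_36960 _ hlt (Nat.mod_eq_zero_of_dvd (hcL ▸ card_orbitFin_dvd L a)) (by omega)
      (by omega)
  -- a second fixed point
  obtain ⟨y, hy, hyfix⟩ : ∃ y, y ≠ (none : GolayPt) ∧ ∀ g ∈ L, g y = y := by
    by_contra hno
    push Not at hno
    have hbig : ∀ a, a ≠ none → (orbitFin L a).card = 22 := by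
      intro a ha
      refine (hsz a ha).resolve_left fun h1 => ?_
      obtain ⟨g, hg, hga⟩ := hno a ha
      obtain ⟨z, hz⟩ := Finset.card_eq_one.1 h1
      have e1 := hz ▸ self_mem_orbitFin L a
      have e2 := hz ▸ orbitFin_inv hg (self_mem_orbitFin L a)
      rw [Finset.mem_singleton] at e1 e2
      exact hga (e2.trans e1.symm)
    have h22 := hbig (some 0) (by simp)
    obtain ⟨b, hb, hbn⟩ : ∃ b, b ≠ none ∧ b ∉ orbitFin L (some 0) := by
      by_contra hcon
      push Not at hcon
      have : ({none}ᶜ : Finset GolayPt).card ≤ (orbitFin L (some 0)).card :=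
        Finset.card_le_card fun b hb => hcon b (by simpa using hb)
      rw [Finset.card_compl, card_golayPt, Finset.card_singleton, h22] at this
      omega
    have hdis : Disjoint (orbitFin L (some 0)) (orbitFin L b) := by
      rw [Finset.disjoint_left]
      intro t h1 h2
      exact hbn (by rw [← orbitFin_eq_of_mem h1, orbitFin_eq_of_mem h2]; exact self_mem_orbitFin L b)
    have := Finset.card_le_univ (orbitFin L (some 0) ∪ orbitFin L b)
    rw [Finset.card_union_of_disjoint hdis, h22, hbig b hb, card_golayPt] at this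
    omega
  -- transport into M22
  obtain ⟨c, hc, -, c1, c2⟩ := exists_move_two (k := 0) (by norm_num)
    ⟨Fin.elim0, fun i => i.elim0⟩ (a := none) (b := y) (c := none) (d := some 0)
    (fun i => i.elim0) (fun i => i.elim0) (fun i => i.elim0) (fun i => i.elim0)
    hy.symm (Option.some_ne_none 0).symm
  have hle22 : L.map (MulAut.conj c).toMonoidHom ≤ Spor.M22 := by
    rintro _ ⟨g, hg, rfl⟩
    refine mem_M22_iff.2 ⟨mul_mem (mul_mem hc (hLle hg)) (inv_mem hc), ?_, ?_⟩
    · show c (g (c⁻¹ none)) = none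
      rw [show c⁻¹ none = none from Equiv.Perm.inv_eq_iff_eq.2 c1.symm, hLfix g hg, c1]
    · show c (g (c⁻¹ (some 0))) = some 0
      rw [show c⁻¹ (some 0) = y from Equiv.Perm.inv_eq_iff_eq.2 c2.symm, hyfix g hg, c2]
  refine no_order_36960 ((L.map (MulAut.conj c).toMonoidHom).subgroupOf Spor.M22) ?_
  rw [Nat.card_congr (Subgroup.subgroupOfEquivOfLe hle22).toEquiv,
    Subgroup.card_map_of_injective (MulAut.conj c).injective, hcL]

theorem subgroups_of_index :
    (∀ H : Subgroup ↥Cfsg.M24, H.index = 759 →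
      ∃ o ∈ Cfsg.octads, H = MulAction.stabilizer Cfsg.M24 o) ∧
    (∀ H : Subgroup ↥Cfsg.M24, H.index = 276 →
      ∃ s : Finset Cfsg.GolayPt, s.card = 2 ∧ H = MulAction.stabilizer Cfsg.M24 s) ∧
    (∀ H : Subgroup ↥Cfsg.M24, H.index = 1771 →
      ∃ S ∈ Cfsg.sextets, H = MulAction.stabilizer Cfsg.M24 S) ∧
    ∀ H : Subgroup ↥Cfsg.M24, H.index ≠ 253 := by
  refine ⟨fun H h => ?_, index_276, fun H h => ?_, fun H h => ?_⟩
  · rcases index_cases_two H (Or.inl h) with ⟨-, r⟩ | ⟨e, -⟩
    · exact r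
    · omega
  · rcases index_cases_two H (Or.inr (Or.inl h)) with ⟨e, -⟩ | ⟨-, r⟩
    · omega
    · exact r
  · rcases index_cases_two H (Or.inr (Or.inr h)) with ⟨e, -⟩ | ⟨e, -⟩ <;> omega

end Cfsg.Agent.M24Sub
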