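import Cfsg.Agent.Golay.OutMathieu
import Cfsg.Agent.M24Geo.Code

/-! The two classes of subgroups M11 in M12, exchanged by an element of M24. -/

set_option autoImplicit false

namespace Cfsg.Agent.M24Sub

open Cfsg Cfsg.Agent.M24Geo
open scoped Pointwise

/-- Elements preserving the dodecad of squares and fixing the extra point. -/
def noneGens : List (List ℕ) :=
  [[0, 1, 10, 9, 19, 5, 6, 2, 15, 17, 7, 8, 16, 13, 4, 11, 21, 3, 18, 14, 23, 12, 20, 22],
   [0, 2, 9, 10, 1, 17, 23, 13, 11, 19, 4, 12, 21, 5, 3, 20, 16, 7, 15, 14, 22, 18, 8, 6]]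

theorem noneGens_facts : noneGens.all autL = true ∧
    noneGens.all (fun l => actL l 681662 == 681662 && l.getD 0 0 == 0) = true ∧
    (List.range 24).all (fun i => !Nat.testBit 681662 i ||
      noneGens.any fun l => !(l.getD i 0 == i)) = true := by
  decide +kernel

theorem squareDodecad_eq : Spor.squareDodecad = ofMask 681662 :=
  support₂_qrWord 0

/-- The stabiliser of the extra point in M12 fixes no point of the dodecad. -/
theorem exists_move_none {x : GolayPt} (hx : x ∈ Spor.squareDodecad) :
    ∃ h ∈ Spor.M12 ⊓ MulAction.stabilizer (Equiv.Perm GolayPt) (none : GolayPt), h x ≠ x := by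
  obtain ⟨hauts, hfix, hmove⟩ := noneGens_facts
  rw [squareDodecad_eq, mem_ofMask] at hx
  have h := List.all_eq_true.mp hmove (idx x) (List.mem_range.mpr (idx_lt x))
  rw [hx, Bool.not_true, Bool.false_or, List.any_eq_true] at h
  obtain ⟨l, hl, hne⟩ := h
  have ha := List.all_eq_true.mp hauts l hl
  have hv : validL l = true := by
    simp only [autL, Bool.and_eq_true] at ha
    exact ha.1
  have hf := List.all_eq_true.mp hfix l hl
  simp only [Bool.and_eq_true, beq_iff_eq] at hf
  refine ⟨permOf l, Subgroup.mem_inf.mpr ⟨Subgroup.mem_inf.mpr ⟨permOf_mem_M24 ha, ?_⟩, ?_⟩, ?_⟩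
  · show permOf l • Spor.squareDodecad = Spor.squareDodecad
    rw [squareDodecad_eq, smul_ofMask hv, hf.1]
  · show permOf l none = none
    rw [show (none : GolayPt) = pt 0 from rfl, permOf_pt hv (by norm_num), hf.2]
  · intro e
    have := idx_permOf hv x
    rw [e] at this
    rw [← this, beq_self_eq_true] at hne
    exact Bool.noConfusion hne

theorem none_not_mem_square : (none : GolayPt) ∉ Spor.squareDodecad := by decide +kernel

/-- An element of M24 exchanging the dodecad of squares with its complement and sending the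
residue 0 to the extra point. -/
theorem exists_exchange : ∃ g ∈ M24, g • Spor.squareDodecad = Finset.univ \ Spor.squareDodecad ∧
    MulAut.conj g • Spor.M11 =
      Spor.M12 ⊓ MulAction.stabilizer (Equiv.Perm GolayPt) (none : GolayPt) := by
  obtain ⟨hc, hcd, hcd'⟩ := Golay.tabPerm_exchange
  have hout : Golay.tabPerm Golay.exchangeTab (some 0) ∉ Spor.squareDodecad := by
    have := Finset.smul_mem_smul_finset (a := Golay.tabPerm Golay.exchangeTab)
      Golay.zero_mem_squareDodecad
    rw [hcd, Finset.mem_compl] at this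
    exact this
  obtain ⟨m, hm, hmc⟩ := Golay.exists_move_M12 (Or.inr ⟨hout, none_not_mem_square⟩)
  have hmd : m • Spor.squareDodecad = Spor.squareDodecad := hm.2
  set g := m * Golay.tabPerm Golay.exchangeTab with hgdef
  have hg : g ∈ M24 := mul_mem hm.1 hc
  have hmdc : m • Spor.squareDodecadᶜ = Spor.squareDodecadᶜ := by
    rw [Finset.compl_eq_univ_sdiff, Finset.smul_finset_sdiff, Finset.smul_finset_univ, hmd]
  have h1 : g • Spor.squareDodecad = Spor.squareDodecadᶜ := by rw [hgdef, mul_smul, hcd, hmdc]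
  have h2 : g • Spor.squareDodecadᶜ = Spor.squareDodecad := by rw [hgdef, mul_smul, hcd', hmd]
  have h0 : g (some 0) = none := hmc
  refine ⟨g, hg, by rw [h1, Finset.compl_eq_univ_sdiff], le_antisymm ?_ ?_⟩
  · intro h hh
    rw [Subgroup.mem_smul_pointwise_iff_exists] at hh
    obtain ⟨a, ha, rfl⟩ := hh
    rw [MulAut.smul_def, MulAut.conj_apply]
    refine Subgroup.mem_inf.mpr ⟨(Golay.conj_mem_M12 hg h1 h2 ha.1).1, ?_⟩
    have ha0 : a (some 0) = some 0 := ha.2
    show (g * a * g⁻¹) none = none
    rw [← h0]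
    simp [ha0]
  · intro h hh
    obtain ⟨hh1, hh2⟩ := Subgroup.mem_inf.mp hh
    have hn : h none = none := hh2
    rw [Subgroup.mem_smul_pointwise_iff_exists]
    refine ⟨g⁻¹ * h * g, Subgroup.mem_inf.mpr ⟨(Golay.conj_mem_M12 hg h1 h2 hh1).2, ?_⟩, ?_⟩
    · show (g⁻¹ * h * g) (some 0) = some 0
      simp only [Equiv.Perm.mul_apply, h0, hn]
      rw [← h0]
      exact g.symm_apply_apply _
    · rw [MulAut.smul_def, MulAut.conj_apply]
      group

/-- The two subgroups M11 are not conjugate in M12. -/
theorem not_conj : ¬ ∃ k ∈ Spor.M12, MulAut.conj k • Spor.M11 =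
    Spor.M12 ⊓ MulAction.stabilizer (Equiv.Perm GolayPt) (none : GolayPt) := by
  rintro ⟨k, hk, he⟩
  have hkd : k • Spor.squareDodecad = Spor.squareDodecad := hk.2
  have hx : k (some 0) ∈ Spor.squareDodecad := by
    have := Finset.smul_mem_smul_finset (a := k) Golay.zero_mem_squareDodecad
    rwa [hkd] at this
  obtain ⟨h, hh, hne⟩ := exists_move_none hx
  rw [← he, Subgroup.mem_smul_pointwise_iff_exists] at hh
  obtain ⟨a, ha, rfl⟩ := hh
  have ha0 : a (some 0) = some 0 := ha.2
  exact hne (by simp [MulAut.smul_def, ha0])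

end Cfsg.Agent.M24Sub
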