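import Cfsg.Agent.M24.Classes
import Cfsg.Agent.Golay.MathieuSimple
import Cfsg.Agent.M24Geo.Trans
import Cfsg.Agent.M24Geo.StabCard

/-!
The stabiliser of a dodecad and three of its points: a normal elementary abelian Sylow 3-subgroup
and a quaternion Sylow 2-subgroup.
-/

set_option autoImplicit false

namespace Cfsg.Agent.M24Sub

open Cfsg Cfsg.Agent.M24 Cfsg.Agent.Golay
open scoped Pointwise

/-- The reference stabiliser. -/
def nineStab : Subgroup (Equiv.Perm GolayPt) :=
  M24 ⊓ MulAction.stabilizer (Equiv.Perm GolayPt) (M24Geo.ofMask M24Geo.dodecad0) ⊓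
    MulAction.stabilizer (Equiv.Perm GolayPt) (basePt 0) ⊓
    MulAction.stabilizer (Equiv.Perm GolayPt) (basePt 1) ⊓
    MulAction.stabilizer (Equiv.Perm GolayPt) (basePt 2)

/-- Membership in the reference stabiliser. -/
def InNine (g : Equiv.Perm GolayPt) : Prop :=
  g (basePt 0) = basePt 0 ∧ g (basePt 1) = basePt 1 ∧ g (basePt 2) = basePt 2 ∧
    g • M24Geo.ofMask M24Geo.dodecad0 = M24Geo.ofMask M24Geo.dodecad0

theorem mem_nineStab {g : Equiv.Perm GolayPt} : g ∈ nineStab ↔ g ∈ M24 ∧ InNine g := by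
  simp only [nineStab, InNine, Subgroup.mem_inf, MulAction.mem_stabilizer_iff,
    Equiv.Perm.smul_def, and_assoc]
  tauto

/-- The positions of the reference dodecad. -/
def dodPos : List ℕ := ((List.range 24).filter fun i => M24Geo.dodecad0.testBit i).map fun i =>
  (i + 23) % 24

theorem mem_dodPos {p : GolayPt} :
    ptIdx p ∈ dodPos ↔ p ∈ M24Geo.ofMask M24Geo.dodecad0 := by
  revert p
  decide +kernel

/-- Pruning for the reference stabiliser. -/
def okNine (im : List ℕ) : Bool :=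
  imgOK im 0 (Nat.beq (basePos 0)) && imgOK im 1 (Nat.beq (basePos 1)) &&
    imgOK im 2 (Nat.beq (basePos 2)) && imgOK im 3 dodPos.contains && imgOK im 4 dodPos.contains

/-- Full test for the reference stabiliser. -/
def fullNine (n : ℕ) (f : ℕ → ℕ) : Bool :=
  Nat.beq (f (basePos 0)) (basePos 0) && Nat.beq (f (basePos 1)) (basePos 1) &&
    Nat.beq (f (basePos 2)) (basePos 2) && (dodPos.all fun i => dodPos.contains (f i)) &&
    (Nat.beq n 0 || powOne n f)

theorem inNine_of_image {g : Equiv.Perm GolayPt}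
    (h : ∀ i ∈ dodPos, posFun g i ∈ dodPos) :
    g • M24Geo.ofMask M24Geo.dodecad0 = M24Geo.ofMask M24Geo.dodecad0 := by
  refine Finset.eq_of_subset_of_card_le (fun x hx => ?_) (Finset.card_smul_finset g _).ge
  obtain ⟨y, hy, rfl⟩ := Finset.mem_smul_finset.mp hx
  rw [← mem_dodPos] at hy ⊢
  rw [Equiv.Perm.smul_def, ← posFun_ptIdx]
  exact h _ hy

theorem tests_nine (n : ℕ) :
    ScanTests (fun g => InNine g ∧ (n = 0 ∨ g ^ n = 1)) okNine (fullNine n) := by
  refine ⟨fun f f' h h24 => ?_, fun g hg => ?_, fun g _ hp k _ => ?_⟩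
  · have h6 : ∀ i ∈ dodPos, i < 24 := by decide +kernel
    simp only [fullNine, h _ (basePos_lt 0 (by norm_num)), h _ (basePos_lt 1 (by norm_num)),
      h _ (basePos_lt 2 (by norm_num)), powOne_congr h h24]
    congr 2
    rw [Bool.eq_iff_iff, List.all_eq_true, List.all_eq_true]
    exact forall_congr' fun i => ⟨fun e hi => h i (h6 i hi) ▸ e hi,
      fun e hi => (h i (h6 i hi)).symm ▸ e hi⟩
  · simp only [fullNine, InNine, Bool.and_eq_true, Bool.or_eq_true, Nat.beq_eq, powOne_iff hg,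
      posFun_base_iff g (show (0 : ℕ) < 7 by norm_num) (show (0 : ℕ) < 7 by norm_num),
      posFun_base_iff g (show (1 : ℕ) < 7 by norm_num) (show (1 : ℕ) < 7 by norm_num),
      posFun_base_iff g (show (2 : ℕ) < 7 by norm_num) (show (2 : ℕ) < 7 by norm_num),
      List.all_eq_true, List.contains_iff_mem, and_assoc]
    refine and_congr_right fun _ => and_congr_right fun _ => and_congr_right fun _ =>
      and_congr ⟨fun h i hi => ?_, inNine_of_image⟩ Iff.rfl
    obtain ⟨p, rfl⟩ : ∃ p, ptIdx p = i :=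
      ⟨ptOf i, ptIdx_ptOf i ((by decide +kernel : ∀ i ∈ dodPos, i < 24) i hi)⟩
    rw [posFun_ptIdx, mem_dodPos]
    rw [mem_dodPos] at hi
    exact h ▸ Finset.smul_mem_smul_finset hi
  · obtain ⟨⟨h0, h1, h2, hd⟩, -⟩ := hp
    have himg : ∀ j < 7, ptIdx (basePt j) ∈ dodPos → dodPos.contains (ptIdx (g (basePt j))) = true := by
      intro j _ hm
      rw [mem_dodPos] at hm
      rw [List.contains_iff_mem, mem_dodPos]
      exact hd ▸ Finset.smul_mem_smul_finset hm
    simp only [okNine, Bool.and_eq_true]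
    refine ⟨⟨⟨⟨imgOK_baseImages _ _ _ _ ?_, imgOK_baseImages _ _ _ _ ?_⟩,
      imgOK_baseImages _ _ _ _ ?_⟩, imgOK_baseImages _ _ _ _ ?_⟩, imgOK_baseImages _ _ _ _ ?_⟩
    · rw [h0, ptIdx_basePt 0 (by norm_num)]; simp
    · rw [h1, ptIdx_basePt 1 (by norm_num)]; simp
    · rw [h2, ptIdx_basePt 2 (by norm_num)]; simp
    · exact himg 3 (by norm_num) (by decide +kernel)
    · exact himg 4 (by norm_num) (by decide +kernel)

set_option maxHeartbeats 4000000 in
theorem nine_scans : (scan okNine (fullNine 0)).length = 72 ∧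
    (scan okNine (fullNine 9)).length = 9 ∧
    (scan okNine (fullNine 9)).all (fun Q => powOne 3 (act Q)) = true := by
  decide +kernel

theorem nineStab_card : Nat.card nineStab = 72 := by
  rw [← nine_scans.1, ← scan_card (tests_nine 0)]
  exact Nat.card_congr (Equiv.subtypeEquivRight fun g => by simp [mem_nineStab])

theorem nineStab_roots : Nat.card {x : nineStab // x ^ 9 = 1} = 9 ∧
    ∀ x : nineStab, x ^ 9 = 1 → x ^ 3 = 1 := by
  constructor
  · refine Eq.trans ?_ ((scan_card (tests_nine 9)).trans nine_scans.2.1)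
    refine Nat.card_congr
      { toFun := fun x => ⟨(x.1 : Equiv.Perm GolayPt), (mem_nineStab.mp x.1.2).1,
          (mem_nineStab.mp x.1.2).2, Or.inr (by
            rw [← SubmonoidClass.coe_pow, x.2]; rfl)⟩
        invFun := fun g => ⟨⟨g.1, mem_nineStab.mpr ⟨g.2.1, g.2.2.1⟩⟩, Subtype.ext (by
          rw [SubmonoidClass.coe_pow]
          exact g.2.2.2.resolve_left (by norm_num))⟩
        left_inv := fun _ => rfl
        right_inv := fun _ => rfl }
  · intro x hx
    obtain ⟨hm, hn⟩ := mem_nineStab.mp x.2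
    obtain ⟨Q, hQ, hr⟩ := (scan_spec (tests_nine 9)).2.1 _ hm
      ⟨hn, Or.inr (by rw [← SubmonoidClass.coe_pow, hx]; rfl)⟩
    refine Subtype.ext ?_
    rw [SubmonoidClass.coe_pow]
    refine (powOne_iff hm 3).mp ?_
    rw [← List.all_eq_true.mp nine_scans.2.2 Q hQ]
    exact powOne_congr (fun i hi => (hr.act_eq hi).symm) (fun i _ => posFun_lt _ i) 3

/-- Powers of a quaternion generator. -/
def quatA : List (List ℕ) :=
  [[0, 1, 2, 3, 4, 5, 6, 7, 8, 9, 10, 11, 12, 13, 14, 15, 16, 17, 18, 19, 20, 21, 22, 23],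
    [0, 1, 2, 3, 7, 23, 22, 15, 4, 16, 9, 12, 21, 10, 17, 8, 13, 14, 20, 11, 6, 19, 18, 5],
    [0, 1, 2, 3, 15, 5, 18, 8, 7, 13, 16, 21, 19, 9, 14, 4, 10, 17, 6, 12, 22, 11, 20, 23],
    [0, 1, 2, 3, 8, 23, 20, 4, 15, 10, 13, 19, 11, 16, 17, 7, 9, 14, 22, 21, 18, 12, 6, 5]]

/-- The other coset of the quaternion generator. -/
def quatXA : List (List ℕ) :=
  [[0, 1, 2, 3, 9, 17, 12, 10, 16, 15, 8, 20, 18, 4, 23, 13, 7, 5, 19, 6, 21, 22, 11, 14],
    [0, 1, 2, 3, 10, 14, 11, 13, 9, 7, 15, 18, 22, 8, 5, 16, 4, 23, 21, 20, 12, 6, 19, 17],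
    [0, 1, 2, 3, 13, 17, 19, 16, 10, 4, 7, 22, 6, 15, 23, 9, 8, 5, 12, 18, 11, 20, 21, 14],
    [0, 1, 2, 3, 16, 14, 21, 9, 13, 8, 4, 6, 20, 7, 5, 10, 15, 23, 11, 22, 19, 18, 12, 17]]

/-- The list of images of an element of the quaternion group. -/
def quatList : QuaternionGroup 2 → List ℕ
  | .a i => quatA.getD i.val []
  | .xa i => quatXA.getD i.val []

set_option maxHeartbeats 1000000 in
theorem quatList_facts :
    (∀ x : QuaternionGroup 2, M24Geo.autL (quatList x) = true) ∧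
    (∀ x : QuaternionGroup 2, M24Geo.actL (quatList x) M24Geo.dodecad0 = M24Geo.dodecad0 ∧
      ∀ i < 3, (quatList x).getD i 0 = i) ∧
    (∀ x y : QuaternionGroup 2, ∀ i < 24,
      (quatList (x * y)).getD i 0 = (quatList x).getD ((quatList y).getD i 0) 0) ∧
    (∀ x : QuaternionGroup 2, (∀ i < 24, (quatList x).getD i 0 = i) → x = 1) := by
  decide +kernel

theorem validL_quat (x : QuaternionGroup 2) : M24Geo.validL (quatList x) = true := by
  have := quatList_facts.1 x
  simp only [M24Geo.autL, Bool.and_eq_true] at this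
  exact this.1

theorem basePt_pt : ∀ j < 3, basePt j = M24Geo.pt j := by decide +kernel

theorem quat_mem (x : QuaternionGroup 2) : M24Geo.permOf (quatList x) ∈ nineStab := by
  have hv := validL_quat x
  obtain ⟨hd, hf⟩ := quatList_facts.2.1 x
  refine mem_nineStab.mpr ⟨M24Geo.permOf_mem_M24 (quatList_facts.1 x), ?_, ?_, ?_, ?_⟩
  iterate 3 rw [basePt_pt _ (by norm_num), M24Geo.permOf_pt hv (by norm_num), hf _ (by norm_num)]
  rw [M24Geo.smul_ofMask hv, hd]

/-- The quaternion subgroup. -/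
noncomputable def quatHom : QuaternionGroup 2 →* nineStab :=
  MonoidHom.mk' (fun x => ⟨M24Geo.permOf (quatList x), quat_mem x⟩) fun x y =>
    Subtype.ext (Equiv.ext fun p => M24Geo.idx_injective (by
      show M24Geo.idx (M24Geo.permOf (quatList (x * y)) p) =
        M24Geo.idx (M24Geo.permOf (quatList x) (M24Geo.permOf (quatList y) p))
      rw [M24Geo.idx_permOf (validL_quat _), M24Geo.idx_permOf (validL_quat _),
        M24Geo.idx_permOf (validL_quat _), quatList_facts.2.2.1 x y _ (M24Geo.idx_lt p)]))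

theorem quatHom_injective : Function.Injective quatHom := by
  rw [injective_iff_map_eq_one]
  intro x hx
  refine quatList_facts.2.2.2 x fun i hi => ?_
  have := congrArg (fun g : nineStab => M24Geo.idx ((g : Equiv.Perm GolayPt) (M24Geo.pt i))) hx
  simp only [OneMemClass.coe_one, Equiv.Perm.one_apply] at this
  rw [show (quatHom x : Equiv.Perm GolayPt) = M24Geo.permOf (quatList x) from rfl,
    M24Geo.idx_permOf (validL_quat x), M24Geo.idx_pt i hi] at this
  exact this

theorem sylow_of_nine {K : Type*} [Group K] [Finite K] (hK : Nat.card K = 72)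
    (h9 : Nat.card {x : K // x ^ 9 = 1} = 9) (h3 : ∀ x : K, x ^ 9 = 1 → x ^ 3 = 1)
    (f : QuaternionGroup 2 →* K) (hf : Function.Injective f) :
    (∀ Q : Sylow 3 K, (Q : Subgroup K).Normal ∧ Nat.card ↥Q = 9 ∧
      ∀ x ∈ (Q : Subgroup K), x ^ 3 = 1) ∧
    ∀ P : Sylow 2 K, Nonempty (↥P ≃* QuaternionGroup 2) := by
  haveI : Fact (Nat.Prime 2) := ⟨Nat.prime_two⟩
  haveI : Fact (Nat.Prime 3) := ⟨Nat.prime_three⟩
  have hcard : ∀ Q : Sylow 3 K, Nat.card ↥Q = 9 := by
    intro Q
    obtain ⟨k, hk⟩ := Q.isPGroup'.exists_card_eq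
    have hmul := Subgroup.card_mul_index (Q : Subgroup K)
    have hnd := Q.not_dvd_index
    rw [hk, hK] at hmul
    have hk3 : k ≤ 3 := by
      by_contra hh
      have h81 : 3 ^ 4 ≤ 3 ^ k := Nat.pow_le_pow_right (by norm_num) (by omega)
      have hd : 3 ^ k ≤ 72 := Nat.le_of_dvd (by norm_num) ⟨_, hmul.symm⟩
      omega
    show Nat.card (Q : Subgroup K) = 9
    rw [hk]
    interval_cases k <;> omega
  have hmem : ∀ (Q : Sylow 3 K) (x : K), x ∈ (Q : Subgroup K) → x ^ 9 = 1 := by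
    intro Q x hx
    have h1 : (⟨x, hx⟩ : ↥Q) ^ 9 = 1 := by
      rw [← hcard Q]
      exact pow_card_eq_one'
    exact congrArg Subtype.val h1
  have hall : ∀ (Q : Sylow 3 K) (x : K), x ^ 9 = 1 → x ∈ (Q : Subgroup K) := by
    intro Q
    let e : ↥Q → {x : K // x ^ 9 = 1} := fun x => ⟨x, hmem Q x x.2⟩
    have he : Function.Bijective e := (Nat.bijective_iff_injective_and_card e).mpr
      ⟨fun a b h => Subtype.ext (congrArg Subtype.val h :), by rw [hcard Q, h9]⟩
    intro x hx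
    obtain ⟨y, hy⟩ := he.2 ⟨x, hx⟩
    have hxy : (y : K) = x := congrArg Subtype.val hy
    exact hxy ▸ y.2
  refine ⟨fun Q => ⟨⟨fun x hx g => hall Q _ ?_⟩, hcard Q, fun x hx => h3 x (hmem Q x hx)⟩,
    fun P => ?_⟩
  · rw [conj_pow, hmem Q x hx]
    group
  · obtain ⟨k, hk⟩ := P.isPGroup'.exists_card_eq
    have hmul := Subgroup.card_mul_index (P : Subgroup K)
    have hnd := P.not_dvd_index
    rw [hk, hK] at hmul
    have hk3 : k ≤ 6 := by
      by_contra hh
      have h81 : 2 ^ 7 ≤ 2 ^ k := Nat.pow_le_pow_right (by norm_num) (by omega)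
      have hd : 2 ^ k ≤ 72 := Nat.le_of_dvd (by norm_num) ⟨_, hmul.symm⟩
      omega
    have h8 : Nat.card (P : Subgroup K) = 8 := by
      rw [hk]
      interval_cases k <;> omega
    have hQ : Nat.card f.range = 8 := by
      rw [← Nat.card_congr (MonoidHom.ofInjective hf).toEquiv, Nat.card_eq_fintype_card,
        QuaternionGroup.card]
    obtain ⟨R, hR⟩ := (IsPGroup.of_card (n := 3) (by rw [hQ]; rfl) : IsPGroup 2 f.range).exists_le_sylow
    have hR8 : Nat.card (R : Subgroup K) = 8 :=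
      (Nat.card_congr (Sylow.equiv P R).toEquiv).symm.trans h8
    have hRe : f.range = (R : Subgroup K) :=
      Subgroup.eq_of_le_of_card_ge hR (by rw [hQ]; exact hR8.le)
    exact ⟨((Sylow.equiv P R).trans (MulEquiv.subgroupCongr hRe.symm)).trans
      (MonoidHom.ofInjective hf).symm⟩

/-- Conjugation onto the reference stabiliser. -/
theorem exists_iso_nineStab {d : Finset GolayPt} (hd : d ∈ dodecads) {p q r : GolayPt}
    (hp : p ∈ d) (hq : q ∈ d) (hr : r ∈ d) (hpq : p ≠ q) (hpr : p ≠ r) (hqr : q ≠ r) :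
    Nonempty (nineStab ≃* ↥(MulAction.stabilizer M24 d ⊓ MulAction.stabilizer M24 p ⊓
      MulAction.stabilizer M24 q ⊓ MulAction.stabilizer M24 r)) := by
  obtain ⟨a, ha, had⟩ := M24Geo.dodecad_trans hd
  have hbase : ∀ j < 3, basePt j ∈ M24Geo.ofMask M24Geo.dodecad0 := by decide +kernel
  have hne : basePt 0 ≠ basePt 1 ∧ basePt 0 ≠ basePt 2 ∧ basePt 1 ≠ basePt 2 := by decide +kernel
  have hb : ∀ j < 3, a (basePt j) ∈ d := fun j hj =>
    had ▸ Finset.smul_mem_smul_finset (hbase j hj)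
  obtain ⟨b, hbm, hbd, hbe⟩ := exists_dodecad_move (k := 3) (by norm_num) hd
    (emb3 (a.injective.ne hne.1) (a.injective.ne hne.2.1) (a.injective.ne hne.2.2))
    (emb3 hpq hpr hqr)
    (by intro i; fin_cases i; exacts [hb 0 (by norm_num), hb 1 (by norm_num), hb 2 (by norm_num)])
    (by intro i; fin_cases i; exacts [hp, hq, hr])
  set c := b * a
  have hc : c ∈ M24 := mul_mem hbm ha
  have hcd : c • M24Geo.ofMask M24Geo.dodecad0 = d := by rw [mul_smul, had, hbd]
  have hc0 : c (basePt 0) = p := hbe 0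
  have hc1 : c (basePt 1) = q := hbe 1
  have hc2 : c (basePt 2) = r := hbe 2
  have fwd : ∀ g : nineStab, (⟨c * g * c⁻¹, mul_mem (mul_mem hc (mem_nineStab.mp g.2).1)
      (inv_mem hc)⟩ : M24) ∈ MulAction.stabilizer M24 d ⊓ MulAction.stabilizer M24 p ⊓
      MulAction.stabilizer M24 q ⊓ MulAction.stabilizer M24 r := by
    intro g
    obtain ⟨-, e0, e1, e2, e3⟩ := mem_nineStab.mp g.2
    simp only [Subgroup.mem_inf, MulAction.mem_stabilizer_iff, Subgroup.smul_def]
    refine ⟨⟨⟨?_, ?_⟩, ?_⟩, ?_⟩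
    · rw [← hcd, mul_smul, mul_smul, inv_smul_smul, e3]
    · rw [← hc0, Equiv.Perm.smul_def]; simp [e0]
    · rw [← hc1, Equiv.Perm.smul_def]; simp [e1]
    · rw [← hc2, Equiv.Perm.smul_def]; simp [e2]
  have bwd : ∀ h : ↥(MulAction.stabilizer M24 d ⊓ MulAction.stabilizer M24 p ⊓
      MulAction.stabilizer M24 q ⊓ MulAction.stabilizer M24 r),
      c⁻¹ * ((h : M24) : Equiv.Perm GolayPt) * c ∈ nineStab := by
    intro h
    have h' := h.2
    simp only [Subgroup.mem_inf, MulAction.mem_stabilizer_iff, Subgroup.smul_def,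
      Equiv.Perm.smul_def] at h'
    obtain ⟨⟨⟨e3, e0⟩, e1⟩, e2⟩ := h'
    refine mem_nineStab.mpr ⟨mul_mem (mul_mem (inv_mem hc) (h : M24).2) hc, ?_, ?_, ?_, ?_⟩
    · simp only [Equiv.Perm.mul_apply, hc0, e0]; rw [← hc0]; exact c.symm_apply_apply _
    · simp only [Equiv.Perm.mul_apply, hc1, e1]; rw [← hc1]; exact c.symm_apply_apply _
    · simp only [Equiv.Perm.mul_apply, hc2, e2]; rw [← hc2]; exact c.symm_apply_apply _
    · rw [mul_smul, mul_smul, hcd]
      change c⁻¹ • ((h : M24) : Equiv.Perm GolayPt) • d = _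
      rw [e3, ← hcd, inv_smul_smul]
  exact ⟨
    { toFun := fun g => ⟨_, fwd g⟩
      invFun := fun h => ⟨_, bwd h⟩
      left_inv := fun g => Subtype.ext (show c⁻¹ * (c * g * c⁻¹) * c = _ by group)
      right_inv := fun h => Subtype.ext (Subtype.ext
        (show c * (c⁻¹ * ((h : M24) : Equiv.Perm GolayPt) * c) * c⁻¹ = _ by group))
      map_mul' := fun g g' => Subtype.ext (Subtype.ext
        (show c * ((g : Equiv.Perm GolayPt) * g') * c⁻¹ = c * g * c⁻¹ * (c * g' * c⁻¹) by group)) }⟩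

theorem nine_sylows {d : Finset GolayPt} (hd : d ∈ dodecads) {p q r : GolayPt}
    (hp : p ∈ d) (hq : q ∈ d) (hr : r ∈ d) (hpq : p ≠ q) (hpr : p ≠ r) (hqr : q ≠ r) :
    (∀ Q : Sylow 3 ↥(MulAction.stabilizer M24 d ⊓ MulAction.stabilizer M24 p ⊓
        MulAction.stabilizer M24 q ⊓ MulAction.stabilizer M24 r),
      (Q : Subgroup ↥(MulAction.stabilizer M24 d ⊓ MulAction.stabilizer M24 p ⊓
        MulAction.stabilizer M24 q ⊓ MulAction.stabilizer M24 r)).Normal ∧ Nat.card ↥Q = 9 ∧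
      ∀ x ∈ (Q : Subgroup ↥(MulAction.stabilizer M24 d ⊓ MulAction.stabilizer M24 p ⊓
        MulAction.stabilizer M24 q ⊓ MulAction.stabilizer M24 r)), x ^ 3 = 1) ∧
    ∀ P : Sylow 2 ↥(MulAction.stabilizer M24 d ⊓ MulAction.stabilizer M24 p ⊓
        MulAction.stabilizer M24 q ⊓ MulAction.stabilizer M24 r),
      Nonempty (↥P ≃* QuaternionGroup 2) := by
  obtain ⟨e⟩ := exists_iso_nineStab hd hp hq hr hpq hpr hqr
  refine sylow_of_nine (by rw [← Nat.card_congr e.toEquiv, nineStab_card]) ?_ ?_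
    (e.toMonoidHom.comp quatHom) (e.injective.comp quatHom_injective)
  · refine Eq.trans (Nat.card_congr (e.toEquiv.subtypeEquiv fun x => ?_)).symm nineStab_roots.1
    show x ^ 9 = 1 ↔ e x ^ 9 = 1
    rw [← map_pow, MulEquiv.map_eq_one_iff]
  · intro x hx
    obtain ⟨y, rfl⟩ := e.surjective x
    rw [← map_pow, ← map_one e, e.injective.eq_iff] at hx
    rw [← map_pow, nineStab_roots.2 y hx, map_one]

end Cfsg.Agent.M24Sub
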