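import Cfsg.Agent.M24Sub.Sextet

/-! An octad and the sextets: suborbits 35, 840, 896. -/

set_option autoImplicit false

namespace Cfsg.Agent.M24Sub

open Cfsg.Agent.M24Geo

open scoped Pointwise
open Cfsg

/-- The invariant on keys. -/
def octSextetKinv (k : ℕ) : ℕ := meetSqM octad0 (masksOf 6 k)

set_option maxHeartbeats 4000000 in
theorem octSextet_cert : sextetTree.check (stepSets 6) octadGens sextetRoots = true ∧
    octadGens.all autL = true ∧ (octadGens.all fun l => stepMask l octad0 octad0) = true ∧
    (sextetRoots.map octSextetKinv).Nodup ∧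
    sextetRoots.all (fun k => (sextetTree.find k).isSome) = true := by
  decide +kernel

/-- Counts by the invariant. -/
def octSextetCnt (v : ℕ) : ℕ := (sextetTree.keys.filter fun k => octSextetKinv k == v).length

set_option maxHeartbeats 4000000 in
theorem octSextetCnt_values : octSextetCnt 32 = 35 ∧ octSextetCnt 16 = 840 ∧ octSextetCnt 14 = 896 ∧
    sextetTree.keys.all (fun k => [32, 16, 14].contains (octSextetKinv k)) = true := by
  decide +kernel


theorem octSextet_kinv {k : ℕ} (hk : k ∈ sextetTree.keys) :
    meetSq (ofMask octad0) (decSets 6 k) = octSextetKinv k :=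
  meetSq_key (List.all_eq_true.mp sextet_keys_canon k hk) octad0

/-- An octad and the sextets: suborbits 35, 840, 896. -/
noncomputable def octSextetFamily : BiFamily (Finset GolayPt) (Finset (Finset GolayPt)) where
  A := octads
  Y := sextets
  R := meetSq
  cnt := octSextetCnt
  smulA := fun _ hg _ hx => smul_mem_words hg hx
  smulY _ hg _ hx := smul_mem_sextets hg hx
  R_smul := fun g _ => meetSq_smul g
  base := (ofMask octad0)
  base_mem := octad0_mem
  trans_base := fun _ hx => octad_trans hx
  separates := bi_separates (base := (ofMask octad0)) (R := meetSq) (stepSets_sound 6) octSextet_cert.1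
    octSextet_cert.2.1 octSextet_cert.2.2.2.1 (fixes_ofMask octSextet_cert.2.1 octSextet_cert.2.2.1)
    (fun g _ => meetSq_smul g) sextet_hX
    fun k hk => octSextet_kinv (OT.mem_keys_of_isSome (List.all_eq_true.mp octSextet_cert.2.2.2.2 k hk))
  count_base := bi_count (R := meetSq) (sortedB_nodup sextet_keys.2.1) sextet_hX sextet_hk
    (decSets_injOn sextet_keys_canon) fun _ hk => octSextet_kinv hk
  vals := [32, 16, 14]
  vals_base y hy := by
    obtain ⟨k, hk, rfl⟩ := sextet_hX y hy
    rw [octSextet_kinv hk]
    exact List.contains_iff_mem.mp (List.all_eq_true.mp octSextetCnt_values.2.2.2 k hk)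

end Cfsg.Agent.M24Sub
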