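import Cfsg.Agent.M24Sub.Trio

/-! An octad and the trios: suborbits 15, 420, 3360. -/

set_option autoImplicit false

namespace Cfsg.Agent.M24Sub

open Cfsg.Agent.M24Geo

open scoped Pointwise
open Cfsg

/-- The invariant on keys. -/
def octTrioKinv (k : ℕ) : ℕ := meetSqM octad0 (masksOf 3 k)

set_option maxHeartbeats 4000000 in
theorem octTrio_cert : trioTree.check (stepSets 3) octadGens trioRoots = true ∧
    octadGens.all autL = true ∧ (octadGens.all fun l => stepMask l octad0 octad0) = true ∧
    (trioRoots.map octTrioKinv).Nodup ∧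
    trioRoots.all (fun k => (trioTree.find k).isSome) = true := by
  decide +kernel

/-- Counts by the invariant. -/
def octTrioCnt (v : ℕ) : ℕ := (trioTree.keys.filter fun k => octTrioKinv k == v).length

set_option maxHeartbeats 4000000 in
theorem octTrioCnt_values : octTrioCnt 64 = 15 ∧ octTrioCnt 32 = 420 ∧ octTrioCnt 24 = 3360 ∧
    trioTree.keys.all (fun k => [64, 32, 24].contains (octTrioKinv k)) = true := by
  decide +kernel


theorem octTrio_kinv {k : ℕ} (hk : k ∈ trioTree.keys) :
    meetSq (ofMask octad0) (decSets 3 k) = octTrioKinv k :=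
  meetSq_key (List.all_eq_true.mp trio_keys_canon k hk) octad0

/-- An octad and the trios: suborbits 15, 420, 3360. -/
noncomputable def octTrioFamily : BiFamily (Finset GolayPt) (Finset (Finset GolayPt)) where
  A := octads
  Y := trios
  R := meetSq
  cnt := octTrioCnt
  smulA := fun _ hg _ hx => smul_mem_words hg hx
  smulY _ hg _ hx := smul_mem_trios hg hx
  R_smul := fun g _ => meetSq_smul g
  base := (ofMask octad0)
  base_mem := octad0_mem
  trans_base := fun _ hx => octad_trans hx
  separates := bi_separates (base := (ofMask octad0)) (R := meetSq) (stepSets_sound 3) octTrio_cert.1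
    octTrio_cert.2.1 octTrio_cert.2.2.2.1 (fixes_ofMask octTrio_cert.2.1 octTrio_cert.2.2.1)
    (fun g _ => meetSq_smul g) trio_hX
    fun k hk => octTrio_kinv (OT.mem_keys_of_isSome (List.all_eq_true.mp octTrio_cert.2.2.2.2 k hk))
  count_base := bi_count (R := meetSq) (sortedB_nodup trio_keys.2.1) trio_hX trio_hk
    (decSets_injOn trio_keys_canon) fun _ hk => octTrio_kinv hk
  vals := [64, 32, 24]
  vals_base y hy := by
    obtain ⟨k, hk, rfl⟩ := trio_hX y hy
    rw [octTrio_kinv hk]
    exact List.contains_iff_mem.mp (List.all_eq_true.mp octTrioCnt_values.2.2.2 k hk)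

end Cfsg.Agent.M24Sub
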