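import Cfsg.Agent.M24Geo.OctadStab
import Cfsg.Agent.M24Geo.Trio
import Cfsg.Agent.M24Sub.DataTrioPairs
import Cfsg.Agent.M24Sub.DataOctKer
import Mathlib.GroupTheory.SpecificGroups.Alternating.Simple

/-!
The fifteen trios through an octad: the octad stabiliser is doubly transitive on them, and its
kernel on them is the pointwise stabiliser of the octad.
-/

set_option autoImplicit false

namespace Cfsg.Agent.M24Sub

open Cfsg.Agent.M24Geo
open scoped Pointwise
open Cfsg

theorem trioPairs_facts :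
    trioPairsTree.check (stepSets 3) trioPairsGens trioPairsRoots = true ∧
    trioPairsGens.all autL = true ∧
    (trioPairsGens.all fun l => stepSets 3 l trio0 trio0 && stepMask l octad0 octad0) = true ∧
    trioPairsRoots = [trio0, 4285733512872762572895] ∧
    triosThrough.all (fun k => (trioPairsTree.find k).isSome) = true := by
  decide +kernel

/-- The first trio root with a marked octad and the second root. -/
theorem pair_base {T : Finset (Finset GolayPt)} (hT : T ∈ trios) (ho : ofMask octad0 ∈ T)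
    (hne : T ≠ decSets 3 trio0) : ∃ g ∈ M24, g • ofMask octad0 = ofMask octad0 ∧
      g • decSets 3 trio0 = decSets 3 trio0 ∧ g • decSets 3 4285733512872762572895 = T := by
  obtain ⟨k, hk, rfl⟩ := trio_through_base hT ho
  obtain ⟨hc, hauts, hfix, hroots, hall⟩ := trioPairs_facts
  have hK : ∀ l ∈ trioPairsGens, permOf l ∈ M24 ⊓
      MulAction.stabilizer (Equiv.Perm GolayPt) (ofMask octad0) ⊓
      MulAction.stabilizer (Equiv.Perm GolayPt) (decSets 3 trio0) := by
    intro l hl
    have h := List.all_eq_true.mp hfix l hl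
    have ha := List.all_eq_true.mp hauts l hl
    rw [Bool.and_eq_true] at h
    exact Subgroup.mem_inf.mpr ⟨Subgroup.mem_inf.mpr ⟨gens_le_M24 hauts l hl,
      stepMask_sound l _ _ ha h.2⟩, stepSets_sound 3 l _ _ ha h.1⟩
  obtain ⟨r, hr, g, hg, hge⟩ := orbit_cert (stepSets_sound 3) hc hauts _ hK k
    (OT.mem_keys_of_isSome (List.all_eq_true.mp hall k hk))
  simp only [Subgroup.mem_inf, MulAction.mem_stabilizer_iff] at hg
  rw [hroots] at hr
  simp only [List.mem_cons, List.not_mem_nil, or_false] at hr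
  rcases hr with rfl | rfl
  · exact absurd (hge.symm.trans hg.2) hne
  · exact ⟨g, hg.1.1, hg.1.2, hg.2, hge⟩

/-- Double transitivity on the trios through an octad. -/
theorem trios_through_two_trans {o : Finset GolayPt} {T₁ T₂ T₁' T₂' : Finset (Finset GolayPt)}
    (h₁ : T₁ ∈ trios) (h₂ : T₂ ∈ trios) (h₁' : T₁' ∈ trios) (h₂' : T₂' ∈ trios) (o₁ : o ∈ T₁)
    (o₂ : o ∈ T₂) (o₁' : o ∈ T₁') (o₂' : o ∈ T₂') (hne : T₁ ≠ T₂) (hne' : T₁' ≠ T₂') :
    ∃ g ∈ M24, g • o = o ∧ g • T₁ = T₁' ∧ g • T₂ = T₂' := by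
  have key : ∀ {A B : Finset (Finset GolayPt)}, A ∈ trios → B ∈ trios → o ∈ A → o ∈ B → A ≠ B →
      ∃ g ∈ M24, g • ofMask octad0 = o ∧ g • decSets 3 trio0 = A ∧
        g • decSets 3 4285733512872762572895 = B := by
    intro A B hA hB hoA hoB hAB
    obtain ⟨a, ha, haT, hao⟩ := trio_marked_trans hA hoA
    have hB' : ofMask octad0 ∈ a⁻¹ • B := by
      rw [← hao] at hoB
      have := Finset.smul_mem_smul_finset (a := a⁻¹) hoB
      rwa [inv_smul_smul] at this
    obtain ⟨b, hb, hbo, hbT, hbB⟩ := pair_base (smul_mem_trios (inv_mem ha) hB) hB'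
      (fun e => hAB (by rw [← haT, ← e, smul_inv_smul]))
    exact ⟨a * b, mul_mem ha hb, by rw [mul_smul, hbo, hao], by rw [mul_smul, hbT, haT],
      by rw [mul_smul, hbB, smul_inv_smul]⟩
  obtain ⟨g, hg, go, g1, g2⟩ := key h₁ h₂ o₁ o₂ hne
  obtain ⟨h, hh, ho, e1, e2⟩ := key h₁' h₂' o₁' o₂' hne'
  refine ⟨h * g⁻¹, mul_mem hh (inv_mem hg), ?_, ?_, ?_⟩
  · rw [mul_smul, ← go, inv_smul_smul]; exact ho.trans go.symm
  · rw [mul_smul, ← g1, inv_smul_smul]; exact e1
  · rw [mul_smul, ← g2, inv_smul_smul]; exact e2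

theorem octKerList_facts : octKerList.length = 16 ∧ octKerList.all autL = true ∧
    octKerList.Nodup ∧
    (octKerList.all fun l => (List.range 24).all fun i =>
      !octad0.testBit i || l.getD i 0 == i) = true ∧
    (octKerList.all fun l => triosThrough.all fun k => stepSets 3 l k k) = true := by
  decide +kernel

theorem validL_of_autL {l : List ℕ} (h : autL l = true) : validL l = true := by
  simp only [autL, Bool.and_eq_true] at h
  exact h.1

theorem permOf_injOn {l l' : List ℕ} (h : validL l = true) (h' : validL l' = true)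
    (e : permOf l = permOf l') : l = l' := by
  have hl : l.length = 24 ∧ l'.length = 24 := by
    simp only [validL, Bool.and_eq_true, beq_iff_eq] at h h'
    exact ⟨h.1.1, h'.1.1⟩
  refine List.ext_getElem (by omega) fun i hi hi' => ?_
  have := idx_permOf h (pt i)
  rw [e, idx_permOf h' (pt i), idx_pt i (by omega), List.getD_eq_getElem _ _ hi,
    List.getD_eq_getElem _ _ hi'] at this
  exact this.symm

theorem octKer_base {k : Equiv.Perm GolayPt} (hk : k ∈ octKer (ofMask octad0)) :
    ∃ l ∈ octKerList, k = permOf l := by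
  obtain ⟨hlen, hauts, hnd, hfix, -⟩ := octKerList_facts
  have hmem : ∀ l ∈ octKerList, permOf l ∈ octKer (ofMask octad0) := by
    intro l hl
    have hv := validL_of_autL (List.all_eq_true.mp hauts l hl)
    refine mem_octKer.mpr ⟨gens_le_M24 hauts l hl, fun x hx => idx_injective ?_⟩
    have h := List.all_eq_true.mp (List.all_eq_true.mp hfix l hl) (idx x)
      (List.mem_range.mpr (idx_lt x))
    rw [mem_ofMask] at hx
    rw [hx, Bool.not_true, Bool.false_or, beq_iff_eq] at h
    rw [idx_permOf hv, h]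
  let f : Fin octKerList.length → octKer (ofMask octad0) :=
    fun i => ⟨_, hmem _ (List.getElem_mem i.isLt)⟩
  have hf : Function.Injective f := fun i j h => by
    refine Fin.ext ((hnd.getElem_inj_iff (hi := i.isLt) (hj := j.isLt)).mp ?_)
    exact permOf_injOn (validL_of_autL (List.all_eq_true.mp hauts _ (List.getElem_mem i.isLt)))
      (validL_of_autL (List.all_eq_true.mp hauts _ (List.getElem_mem j.isLt)))
      (congrArg Subtype.val h)
  have hb : Function.Bijective f := (Nat.bijective_iff_injective_and_card f).mpr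
    ⟨hf, by rw [Nat.card_fin, hlen, card_octKer octad0_mem]⟩
  obtain ⟨i, hi⟩ := hb.2 ⟨k, hk⟩
  exact ⟨_, List.getElem_mem i.isLt, (congrArg Subtype.val hi).symm⟩

/-- The pointwise stabiliser of an octad fixes every trio through it. -/
theorem octKer_fix_trio {o : Finset GolayPt} {k : Equiv.Perm GolayPt} (hk : k ∈ octKer o)
    {T : Finset (Finset GolayPt)} (hT : T ∈ trios) (hoT : o ∈ T) : k • T = T := by
  obtain ⟨a, ha, hao⟩ := octad_trans (hT.2.1 o hoT)
  have hk' : a⁻¹ * k * a ∈ octKer (ofMask octad0) := by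
    have h := octKer_conj (inv_mem ha) hk
    rw [inv_inv, ← hao, inv_smul_smul] at h
    exact h
  obtain ⟨l, hl, hle⟩ := octKer_base hk'
  have hT' : ofMask octad0 ∈ a⁻¹ • T := by
    rw [← hao] at hoT
    have := Finset.smul_mem_smul_finset (a := a⁻¹) hoT
    rwa [inv_smul_smul] at this
  obtain ⟨r, hr, hre⟩ := trio_through_base (smul_mem_trios (inv_mem ha) hT) hT'
  obtain ⟨-, hauts, -, -, hstep⟩ := octKerList_facts
  have h := stepSets_sound 3 l r r (List.all_eq_true.mp hauts l hl)
    (List.all_eq_true.mp (List.all_eq_true.mp hstep l hl) r hr)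
  rw [← hle, hre, mul_smul, mul_smul, smul_inv_smul, smul_left_cancel_iff] at h
  exact h

/-- The elements of an octad stabiliser fixing every trio through the octad. -/
def trioKer (o : Finset GolayPt) : Subgroup (octStab o) where
  carrier := {g | ∀ T ∈ trios, o ∈ T → (g : Equiv.Perm GolayPt) • T = T}
  one_mem' T _ _ := one_smul _ T
  mul_mem' {g h} hg hh T hT hoT := by
    show ((g : Equiv.Perm GolayPt) * (h : Equiv.Perm GolayPt)) • T = T
    rw [mul_smul, hh T hT hoT, hg T hT hoT]
  inv_mem' {g} hg T hT hoT := by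
    show (g : Equiv.Perm GolayPt)⁻¹ • T = T
    rw [inv_smul_eq_iff, hg T hT hoT]

theorem trioKer_normal (o : Finset GolayPt) : (trioKer o).Normal := by
  refine ⟨fun n hn g T hT hoT => ?_⟩
  have hgo := (mem_octStab.mp (inv_mem g.2)).2
  have hT' : o ∈ (g : Equiv.Perm GolayPt)⁻¹ • T := by
    have := Finset.smul_mem_smul_finset (a := (g : Equiv.Perm GolayPt)⁻¹) hoT
    rwa [hgo] at this
  show ((g : Equiv.Perm GolayPt) * (n : Equiv.Perm GolayPt) * (g : Equiv.Perm GolayPt)⁻¹) • T = T
  rw [mul_smul, mul_smul, hn _ (smul_mem_trios (inv_mem (mem_octStab.mp g.2).1) hT) hT',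
    smul_inv_smul]

/-- Fixing every trio through an octad is fixing the octad pointwise. -/
theorem fix_trios_iff {o : Finset GolayPt} (ho : o ∈ octads) {g : Equiv.Perm GolayPt}
    (hg : g ∈ M24) (hgo : g • o = o) :
    (∀ T ∈ trios, o ∈ T → g • T = T) ↔ ∀ p ∈ o, g p = p := by
  refine ⟨fun h => ?_, fun h T hT hoT => octKer_fix_trio (mem_octKer.mpr ⟨hg, h⟩) hT hoT⟩
  have hmem : ∀ x, restrictHom o x ∈ alternatingGroup ↥o := fun x => by
    rw [← restrictHom_range ho]; exact ⟨x, rfl⟩
  let f : octStab o →* alternatingGroup ↥o := (restrictHom o).codRestrict _ hmem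
  have hf : Function.Surjective f := by
    intro e
    have he : (e : Equiv.Perm ↥o) ∈ (restrictHom o).range := by
      rw [restrictHom_range ho]; exact e.2
    obtain ⟨x, hx⟩ := he
    exact ⟨x, Subtype.ext hx⟩
  have hker : ∀ x, f x = 1 → (x : Equiv.Perm GolayPt) ∈ octKer o := fun x hx =>
    mem_octKer.mpr ⟨(mem_octStab.mp x.2).1, fun p hp => congrArg Subtype.val
      (Equiv.ext_iff.mp (congrArg Subtype.val hx : restrictHom o x = 1) ⟨p, hp⟩)⟩
  haveI : IsSimpleGroup (alternatingGroup ↥o) := alternatingGroup.isSimpleGroup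
    (by rw [Nat.card_eq_fintype_card, Fintype.card_coe, ho.2]; norm_num)
  have hN : ((trioKer o).map f).Normal := (trioKer_normal o).map f hf
  rcases hN.eq_bot_or_eq_top with hb | ht
  · have hgN : (⟨g, mem_octStab.mpr ⟨hg, hgo⟩⟩ : octStab o) ∈ trioKer o := h
    have := Subgroup.mem_map_of_mem f hgN
    rw [hb, Subgroup.mem_bot] at this
    exact fun p hp => (mem_octKer.mp (hker _ this)).2 p hp
  · exfalso
    have hall : ∀ x, x ∈ trioKer o := by
      intro x
      obtain ⟨n, hn, hne⟩ := (ht.symm ▸ Subgroup.mem_top (f x) : f x ∈ (trioKer o).map f)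
      have hxn : f (x * n⁻¹) = 1 := by rw [map_mul, map_inv, hne, mul_inv_cancel]
      have : x * n⁻¹ ∈ trioKer o := fun T hT hoT => octKer_fix_trio (hker _ hxn) hT hoT
      simpa using mul_mem this hn
    have h15 := ncard_trios_through ho
    obtain ⟨T₁, T₂, h₁, h₂, hne⟩ :=
      (Set.one_lt_ncard_iff (Set.toFinite _)).mp (by omega : 1 < {T | T ∈ trios ∧ o ∈ T}.ncard)
    obtain ⟨x, hx, hxo, hx1, -⟩ :=
      trios_through_two_trans h₁.1 h₂.1 h₂.1 h₁.1 h₁.2 h₂.2 h₂.2 h₁.2 hne hne.symm
    exact hne ((hall ⟨x, mem_octStab.mpr ⟨hx, hxo⟩⟩ T₁ h₁.1 h₁.2).symm.trans hx1)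

end Cfsg.Agent.M24Sub
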