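import Cfsg.Agent.M24Sub.SylowFlag
import Cfsg.Agent.Golay.IndexM23
import Cfsg.Agent.M24Geo.Sextet

/-!
The subgroups of M24 of orders 322560, 138240 and 967680 that contain the flag stabiliser.
-/

set_option autoImplicit false

namespace Cfsg.Agent.M24Sub

open Cfsg Cfsg.Agent.Golay
open scoped Pointwise

/-- The point with the first base position. -/
abbrev x0 : GolayPt := ptOf 23

/-- The tetrad of the flag through the first point. -/
def quad : Finset GolayPt := {ptOf 23, ptOf 0, ptOf 1, ptOf 2}

theorem flag_facts :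
    (∀ p : GolayPt, p ∈ oct0 ↔ ptIdx p ∈ flagPts) ∧ quad.card = 4 ∧ quad ⊆ oct0 := by
  decide +kernel

variable {K : Subgroup (Equiv.Perm GolayPt)}

theorem smul_eq_of_inv {K : Subgroup (Equiv.Perm GolayPt)} {O : Finset GolayPt}
    (h : ∀ k ∈ K, ∀ p ∈ O, k p ∈ O) {k : Equiv.Perm GolayPt} (hk : k ∈ K) : k • O = O := by
  refine Finset.eq_of_subset_of_card_le (fun p hp => ?_) (Finset.card_smul_finset _ _).ge
  obtain ⟨q, hq, rfl⟩ := Finset.mem_smul_finset.mp hp
  exact h k hk q hq

theorem apply_mem_of_smul_eq {O : Finset GolayPt} {k : Equiv.Perm GolayPt} (h : k • O = O)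
    {p : GolayPt} (hp : p ∈ O) : k p ∈ O :=
  Eq.subst (motive := fun T => k p ∈ T) h (Finset.smul_mem_smul_finset hp)

/-- A block through the first point, from a set invariant under its stabiliser. -/
theorem block_of_inv (B : Finset GolayPt)
    (hinv : ∀ k ∈ K, k x0 = x0 → ∀ p ∈ B, k p ∈ B)
    (htr : ∀ p ∈ B, ∃ s ∈ K, s x0 = p ∧ s • B = B) :
    ∀ k ∈ K, ∀ p ∈ B, k p ∈ B → k • B = B := by
  intro k hk p hp hkp
  obtain ⟨s, hs, es, hsB⟩ := htr p hp
  obtain ⟨t, ht, et, htB⟩ := htr (k p) hkp
  have hx' : (t⁻¹ * k * s) x0 = x0 := by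
    simp only [Equiv.Perm.mul_apply, es, ← et]
    exact t.symm_apply_apply x0
  have hfix : (t⁻¹ * k * s) • B = B := by
    refine Finset.eq_of_subset_of_card_le (fun q hq => ?_) (Finset.card_smul_finset _ _).ge
    obtain ⟨r, hr, rfl⟩ := Finset.mem_smul_finset.mp hq
    exact hinv _ (mul_mem (mul_mem (inv_mem ht) hk) hs) hx' r hr
  rw [mul_smul, mul_smul, hsB, inv_smul_eq_iff, htB] at hfix
  exact hfix

/-- The blocks. -/
noncomputable def blocks (K : Subgroup (Equiv.Perm GolayPt)) (B : Finset GolayPt) :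
    Finset (Finset GolayPt) := by
  classical exact Finset.univ.filter fun C => ∃ k ∈ K, k • B = C

theorem mem_blocks {B C : Finset GolayPt} : C ∈ blocks K B ↔ ∃ k ∈ K, k • B = C := by
  classical simp [blocks]

theorem blocks_disjoint {B : Finset GolayPt}
    (hblock : ∀ k ∈ K, ∀ p ∈ B, k p ∈ B → k • B = B) :
    ∀ C ∈ blocks K B, ∀ D ∈ blocks K B, C ≠ D → Disjoint C D := by
  intro C hC D hD hne
  obtain ⟨k, hk, rfl⟩ := mem_blocks.1 hC
  obtain ⟨l, hl, rfl⟩ := mem_blocks.1 hD
  rw [Finset.disjoint_left]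
  intro q hq hq'
  obtain ⟨a, ha, rfl⟩ := Finset.mem_smul_finset.mp hq
  obtain ⟨b, hb, e⟩ := Finset.mem_smul_finset.mp hq'
  refine hne ?_
  have := hblock (l⁻¹ * k) (mul_mem (inv_mem hl) hk) a ha (by
    rw [Equiv.Perm.mul_apply, show k a = l b from e.symm]
    exact (Equiv.symm_apply_apply l b).symm ▸ hb)
  rwa [mul_smul, inv_smul_eq_iff] at this

theorem blocks_cover {B : Finset GolayPt} (hx : x0 ∈ B) (htrans : ∀ p, ∃ k ∈ K, k x0 = p)
    (p : GolayPt) : ∃ C ∈ blocks K B, p ∈ C := by
  obtain ⟨k, hk, rfl⟩ := htrans p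
  exact ⟨k • B, mem_blocks.2 ⟨k, hk, rfl⟩, Finset.smul_mem_smul_finset hx⟩

theorem blocks_mul_card {B : Finset GolayPt} (hx : x0 ∈ B)
    (hblock : ∀ k ∈ K, ∀ p ∈ B, k p ∈ B → k • B = B) (htrans : ∀ p, ∃ k ∈ K, k x0 = p) :
    (blocks K B).card * B.card = 24 := by
  classical
  have hu : ((blocks K B).biUnion fun C => C) = Finset.univ := by
    refine Finset.eq_univ_of_forall fun p => ?_
    obtain ⟨C, hC, hp⟩ := blocks_cover hx htrans p
    exact Finset.mem_biUnion.2 ⟨C, hC, hp⟩
  rw [← Golay.card_golayPt, ← Finset.card_univ, ← hu, Finset.card_biUnion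
    (fun C hC D hD h => blocks_disjoint hblock C hC D hD h),
    Finset.sum_congr rfl fun C hC => show C.card = B.card by
      obtain ⟨k, -, rfl⟩ := mem_blocks.1 hC
      exact Finset.card_smul_finset k B]
  simp

/-- An element of prime order fixes each block when there are fewer blocks than that prime. -/
theorem fix_block {B : Finset GolayPt} {p : ℕ} (hp : p.Prime) (hlt : (blocks K B).card < p)
    {g : Equiv.Perm GolayPt} (hg : g ∈ K) (ho : orderOf g = p) :
    ∀ C ∈ blocks K B, g • C = C := by
  classical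
  intro C hC
  have hinv : ∀ D ∈ blocks K B, g • D ∈ blocks K B := by
    intro D hD
    obtain ⟨k, hk, rfl⟩ := mem_blocks.1 hD
    exact mem_blocks.2 ⟨g * k, mul_mem hg hk, mul_smul g k B⟩
  have hperiod : g ^ p • C = C := by rw [← ho, pow_orderOf_eq_one, one_smul]
  by_contra hne
  have hmem : ∀ i : ℕ, g ^ i • C ∈ blocks K B := by
    intro i
    induction i with
    | zero => rw [pow_zero, one_smul]; exact hC
    | succ i ih => rw [pow_succ', mul_smul]; exact hinv _ ih
  have hperiod' : MulAction.period g C = p := by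
    have hd : MulAction.period g C ∣ p := MulAction.pow_smul_eq_iff_period_dvd.1 hperiod
    refine ((Nat.dvd_prime hp).1 hd).resolve_left fun h1 => hne ?_
    have := MulAction.pow_period_smul g C
    rwa [h1, pow_one] at this
  have : p ≤ (blocks K B).card := by
    have hinj : Set.InjOn (fun i : ℕ => g ^ i • C) (Finset.range p) := by
      intro i hi j hj e
      rw [Finset.coe_range, Set.mem_Iio] at hi hj
      have key : ∀ a b, a < p → b < p → a ≤ b → g ^ a • C = g ^ b • C → a = b := by
        intro a b ha hb hab e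
        have h' : g ^ (b - a) • C = C := by
          have h2 : g ^ a • (g ^ (b - a) • C) = g ^ a • C := by
            rw [← mul_smul, ← pow_add, Nat.add_sub_cancel' hab]; exact e.symm
          exact smul_left_cancel _ h2
        have hd := MulAction.pow_smul_eq_iff_period_dvd.1 h'
        rw [hperiod'] at hd
        rcases Nat.eq_zero_or_pos (b - a) with h0 | h0
        · omega
        · exact absurd (Nat.le_of_dvd h0 hd) (by omega)
      rcases le_total i j with h | h
      · exact key i j hi hj h e
      · exact (key j i hj hi h e.symm).symm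
    calc p = ((Finset.range p).image fun i => g ^ i • C).card := by
          rw [Finset.card_image_of_injOn hinj, Finset.card_range]
      _ ≤ _ := Finset.card_le_card fun D hD => by
          obtain ⟨i, -, rfl⟩ := Finset.mem_image.1 hD
          exact hmem i
  omega

/-- The fixed points forced by blocks of an element fixing each block. -/
theorem fix_count {B : Finset GolayPt} {p : ℕ} [Fact p.Prime]
    (hblock : ∀ k ∈ K, ∀ p ∈ B, k p ∈ B → k • B = B)
    {g : Equiv.Perm GolayPt} (ho : orderOf g = p) (hfix : ∀ C ∈ blocks K B, g • C = C) :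
    (blocks K B).card * (B.card % p) ≤ (fixSet g).card := by
  classical
  have hd : ∀ C ∈ blocks K B, ∀ D ∈ blocks K B, C ≠ D →
      Disjoint (C.filter fun q => g q = q) (D.filter fun q => g q = q) := fun C hC D hD h =>
    Finset.disjoint_filter_filter (blocks_disjoint hblock C hC D hD h)
  calc (blocks K B).card * (B.card % p)
      = ∑ _C ∈ blocks K B, B.card % p := by rw [Finset.sum_const, smul_eq_mul]
    _ ≤ ∑ C ∈ blocks K B, (C.filter fun q => g q = q).card := Finset.sum_le_sum fun C hC => by
        have h := card_mod_fix ho C fun q hq => apply_mem_of_smul_eq (hfix C hC) hq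
        obtain ⟨k, -, rfl⟩ := mem_blocks.1 hC
        rw [Finset.card_smul_finset] at h
        exact h.le.trans (Nat.mod_le _ _)
    _ = ((blocks K B).biUnion fun C => C.filter fun q => g q = q).card :=
        (Finset.card_biUnion hd).symm
    _ ≤ _ := Finset.card_le_card fun q hq => by
        obtain ⟨C, -, hq⟩ := Finset.mem_biUnion.1 hq
        exact mem_fixSet.2 (Finset.mem_filter.1 hq).2

end Cfsg.Agent.M24Sub
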