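import Cfsg.Agent.M24Sub.BiFamily

/-! Families of sets packed in numbers: canonical keys, sums over members, intersection sums. -/

set_option autoImplicit false

namespace Cfsg.Agent.M24Sub

open Cfsg.Agent.M24Geo

open scoped Pointwise
open Cfsg

/-- The key lists its masks in increasing order. -/
def canonKey (n k : ℕ) : Bool := sortedB (masksOf n k) && pack (masksOf n k) == k

theorem masksOf_length : ∀ n k, (masksOf n k).length = n
  | 0, _ => rfl
  | n + 1, k => by rw [masksOf, List.length_cons, masksOf_length n]

theorem masksOf_injOn (n k : ℕ) : Set.InjOn ofMask ((masksOf n k).toFinset : Set ℕ) := by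
  intro a ha b hb h
  rw [List.coe_toFinset] at ha hb
  exact ofMask_inj (masksOf_lt n k a ha) (masksOf_lt n k b hb) h

theorem decSets_card {n k : ℕ} (h : canonKey n k = true) : (decSets n k).card = n := by
  rw [canonKey, Bool.and_eq_true] at h
  rw [decSets, Finset.card_image_of_injOn (masksOf_injOn n k),
    List.toFinset_card_of_nodup (sortedB_nodup h.1), masksOf_length]

theorem decSets_sum {M : Type*} [AddCommMonoid M] {n k : ℕ} (h : canonKey n k = true)
    (F : Finset GolayPt → M) :
    ∑ s ∈ decSets n k, F s = ((masksOf n k).map fun m => F (ofMask m)).sum := by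
  rw [canonKey, Bool.and_eq_true] at h
  rw [decSets, Finset.sum_image (masksOf_injOn n k),
    List.sum_toFinset _ (sortedB_nodup h.1)]

theorem decSets_injOn {n : ℕ} {L : List ℕ} (h : L.all (canonKey n) = true) :
    Set.InjOn (decSets n) {k | k ∈ L} := by
  intro a ha b hb hab
  have ha' := List.all_eq_true.mp h a ha
  have hb' := List.all_eq_true.mp h b hb
  simp only [canonKey, Bool.and_eq_true, beq_iff_eq] at ha' hb'
  have key : ∀ {a b : ℕ}, decSets n a = decSets n b → ∀ m ∈ masksOf n a, m ∈ masksOf n b := by
    intro a b hab m hm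
    obtain ⟨m', hm', he⟩ := mem_decSets.mp (hab ▸ mem_decSets.mpr ⟨m, hm, rfl⟩ :
      ofMask m ∈ decSets n b)
    rwa [← ofMask_inj (masksOf_lt n b m' hm') (masksOf_lt n a m hm) he]
  rw [← ha'.2, ← hb'.2]
  congr 1
  refine List.Perm.eq_of_pairwise (fun x y _ _ h1 h2 => absurd h2 (not_lt.mpr h1.le)) (sortedB_pairwise ha'.1) (sortedB_pairwise hb'.1) ?_
  exact (List.perm_ext_iff_of_nodup (sortedB_nodup ha'.1) (sortedB_nodup hb'.1)).mpr
    fun m => ⟨key hab m, key hab.symm m⟩

/-- The generators fix a packed family. -/
theorem fixes_decSets {n root : ℕ} {gens : List (List ℕ)} (h : gens.all autL = true)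
    (h' : (gens.all fun l => stepSets n l root root) = true) :
    ∀ l ∈ gens, permOf l • decSets n root = decSets n root :=
  fun l hl => MulAction.mem_stabilizer_iff.mp (gens_le_stab (stepSets_sound n) h h' l hl).2

/-- The generators fix a set. -/
theorem fixes_ofMask {root : ℕ} {gens : List (List ℕ)} (h : gens.all autL = true)
    (h' : (gens.all fun l => stepMask l root root) = true) :
    ∀ l ∈ gens, permOf l • ofMask root = ofMask root :=
  fun l hl => MulAction.mem_stabilizer_iff.mp (gens_le_stab stepMask_sound h h' l hl).2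

theorem sum_smul_family {M : Type*} [AddCommMonoid M] (g : Equiv.Perm GolayPt)
    (S : Finset (Finset GolayPt)) (F : Finset GolayPt → M) :
    ∑ t ∈ g • S, F t = ∑ t ∈ S, F (g • t) := by
  rw [Finset.smul_finset_def, Finset.sum_image (MulAction.injective g).injOn]

/-- The sum of the squared intersections of a set with the members of a family. -/
def meetSq (o : Finset GolayPt) (S : Finset (Finset GolayPt)) : ℕ := ∑ t ∈ S, (o ∩ t).card ^ 2

/-- The sum of the squared intersections between two families. -/
def meetSq₂ (P S : Finset (Finset GolayPt)) : ℕ := ∑ a ∈ P, meetSq a S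

theorem meetSq_smul (g : Equiv.Perm GolayPt) (o : Finset GolayPt) (S : Finset (Finset GolayPt)) :
    meetSq (g • o) (g • S) = meetSq o S := by
  rw [meetSq, sum_smul_family]
  exact Finset.sum_congr rfl fun t _ => by rw [← Finset.smul_finset_inter, Finset.card_smul_finset]

theorem meetSq₂_smul (g : Equiv.Perm GolayPt) (P S : Finset (Finset GolayPt)) :
    meetSq₂ (g • P) (g • S) = meetSq₂ P S := by
  rw [meetSq₂, sum_smul_family]
  exact Finset.sum_congr rfl fun a _ => meetSq_smul g a S

/-- `meetSq` on masks. -/
def meetSqM (o : ℕ) (L : List ℕ) : ℕ := (L.map fun m => popc (o &&& m) * popc (o &&& m)).sum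

theorem meetSq_key {n k : ℕ} (h : canonKey n k = true) (o : ℕ) :
    meetSq (ofMask o) (decSets n k) = meetSqM o (masksOf n k) := by
  rw [meetSq, decSets_sum h, meetSqM]
  congr 1
  refine List.map_congr_left fun m _ => ?_
  rw [← ofMask_and, card_ofMask, sq]

/-- `meetSq₂` on masks. -/
def meetSq₂M (P L : List ℕ) : ℕ := (P.map fun a => meetSqM a L).sum

theorem meetSq₂_key {p r n k : ℕ} (hp : canonKey p r = true) (h : canonKey n k = true) :
    meetSq₂ (decSets p r) (decSets n k) = meetSq₂M (masksOf p r) (masksOf n k) := by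
  rw [meetSq₂, decSets_sum hp, meetSq₂M]
  congr 1
  exact List.map_congr_left fun a _ => meetSq_key h a

end Cfsg.Agent.M24Sub
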