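import Cfsg.Agent.M24Sub.Pack
import Cfsg.Agent.M24Geo.Octad
import Cfsg.Agent.M24Sub.DataSextet

/-!
Sextets: any of the six tetrads determines the sextet, `M24` is transitive on them, and they are
the 1771 listed ones.
-/

set_option autoImplicit false

namespace Cfsg.Agent.M24Sub

open Cfsg.Agent.M24Geo

open scoped Pointwise
open Cfsg

theorem sextet_disjoint {S : Finset (Finset GolayPt)} (hS : S ∈ sextets) :
    (S : Set (Finset GolayPt)).PairwiseDisjoint id := by
  intro t ht u hu hne
  have h8 : (t ∪ u).card = 8 := (hS.2.2 t ht u hu hne).2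
  have h := Finset.card_union_add_card_inter t u
  rw [h8, hS.2.1 t ht, hS.2.1 u hu] at h
  show Disjoint t u
  exact Finset.disjoint_iff_inter_eq_empty.mpr (Finset.card_eq_zero.mp (by omega))

theorem sextet_cover {S : Finset (Finset GolayPt)} (hS : S ∈ sextets) (p : GolayPt) :
    ∃ t ∈ S, p ∈ t := by
  have h : (S.biUnion id).card = 24 := by
    rw [Finset.card_biUnion (sextet_disjoint hS)]
    simp only [id]
    rw [Finset.sum_congr rfl fun t ht => hS.2.1 t ht,
      Finset.sum_const, hS.1]
    rfl
  have : S.biUnion id = Finset.univ := Finset.eq_univ_of_card _ (by rw [h]; rfl)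
  have hp : p ∈ S.biUnion id := this ▸ Finset.mem_univ p
  simpa using hp

theorem sextet_eq_of_mem {S S' : Finset (Finset GolayPt)} (hS : S ∈ sextets) (hS' : S' ∈ sextets)
    {t : Finset GolayPt} (ht : t ∈ S) (ht' : t ∈ S') : S = S' := by
  refine Finset.eq_of_subset_of_card_le (fun u hu => ?_) (by rw [hS.1, hS'.1])
  by_cases hut : u = t
  · rwa [hut]
  obtain ⟨p, hp⟩ : u.Nonempty := Finset.card_pos.mp (by rw [hS.2.1 u hu]; norm_num)
  obtain ⟨u', hu', hpu'⟩ := sextet_cover hS' p
  have hd : Disjoint t u := sextet_disjoint hS ht hu (Ne.symm hut)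
  have hne' : u' ≠ t := fun e => Finset.disjoint_left.mp hd (e ▸ hpu') hp
  have hd' : Disjoint t u' := sextet_disjoint hS' ht' hu' (Ne.symm hne')
  have hpt : p ∉ t := fun h => Finset.disjoint_left.mp hd h hp
  have heq : t ∪ u = t ∪ u' := octad_eq_of_five (hS.2.2 t ht u hu (Ne.symm hut))
    (hS'.2.2 t ht' u' hu' (Ne.symm hne'))
    (Finset.insert_subset (Finset.mem_union_right _ hp) Finset.subset_union_left)
    (Finset.insert_subset (Finset.mem_union_right _ hpu') Finset.subset_union_left)
    (by rw [Finset.card_insert_of_notMem hpt, hS.2.1 t ht])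
  have : u = u' := by
    rw [← Finset.union_sdiff_cancel_left hd, heq, Finset.union_sdiff_cancel_left hd']
  rwa [this]

theorem smul_mem_sextets {g : Equiv.Perm GolayPt} (hg : g ∈ M24) {S : Finset (Finset GolayPt)}
    (hS : S ∈ sextets) : g • S ∈ sextets := by
  refine ⟨by rw [Finset.card_smul_finset]; exact hS.1, ?_, ?_⟩
  · intro t ht
    obtain ⟨u, hu, rfl⟩ := Finset.mem_smul_finset.mp ht
    rw [Finset.card_smul_finset, hS.2.1 u hu]
  · intro t ht u hu hne
    obtain ⟨t', ht', rfl⟩ := Finset.mem_smul_finset.mp ht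
    obtain ⟨u', hu', rfl⟩ := Finset.mem_smul_finset.mp hu
    rw [← Finset.smul_finset_union]
    exact smul_mem_words hg (hS.2.2 t' ht' u' hu' fun e => hne (by rw [e]))

/-- A key of a sextet. -/
def sextetKey (k : ℕ) : Bool :=
  canonKey 6 k && (masksOf 6 k).all fun a => (masksOf 6 k).all fun b => Nat.ble b a ||
      (a &&& b == 0 && (octadTree.find (a ||| b)).isSome)

theorem decSets_mem_sextets {k : ℕ} (h : sextetKey k = true) : decSets 6 k ∈ sextets := by
  simp only [sextetKey, Bool.and_eq_true, List.all_eq_true, beq_iff_eq, Bool.or_eq_true] at h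
  have key : ∀ t ∈ decSets 6 k, ∀ u ∈ decSets 6 k, t ≠ u →
      Disjoint t u ∧ t ∪ u ∈ octads := by
    intro t ht u hu hne
    obtain ⟨a, ha, rfl⟩ := mem_decSets.mp ht
    obtain ⟨b, hb, rfl⟩ := mem_decSets.mp hu
    have hlt : ∀ {x y : ℕ}, x < y → x ∈ masksOf 6 k → y ∈ masksOf 6 k →
        Disjoint (ofMask x) (ofMask y) ∧ ofMask x ∪ ofMask y ∈ octads := by
      intro x y hxy hx hy
      have h' := (h.2 x hx y hy).resolve_left fun e => by
        rw [Nat.ble_eq] at e
        omega
      refine ⟨(ofMask_disjoint_iff (masksOf_lt 6 k y hy)).mpr h'.1, ?_⟩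
      rw [← ofMask_or]
      exact mem_wordsOfWeight_iff.mpr ⟨_, List.all_eq_true.mp octad_keys_word _
        (OT.mem_keys_of_isSome h'.2), rfl⟩
    rcases lt_trichotomy a b with hab | hab | hab
    · exact hlt hab ha hb
    · exact absurd (by rw [hab]) hne
    · obtain ⟨h1, h2⟩ := hlt hab hb ha
      exact ⟨h1.symm, by rw [Finset.union_comm]; exact h2⟩
  refine ⟨decSets_card h.1, fun t ht => ?_, fun t ht u hu hne => (key t ht u hu hne).2⟩
  have hsum : ∀ t ∈ decSets 6 k, ∀ u ∈ decSets 6 k, t ≠ u → t.card + u.card = 8 := by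
    intro t ht u hu hne
    obtain ⟨h1, h2⟩ := key t ht u hu hne
    rw [← Finset.card_union_of_disjoint h1]
    exact h2.2
  have h5 : ((decSets 6 k).erase t).card = 5 := by
    rw [Finset.card_erase_of_mem ht, decSets_card h.1]
  obtain ⟨u, hu⟩ : ((decSets 6 k).erase t).Nonempty := Finset.card_pos.mp (by omega)
  obtain ⟨v, hv, hvu⟩ := Finset.exists_mem_ne (by omega : 1 < ((decSets 6 k).erase t).card) u
  rw [Finset.mem_erase] at hu hv
  have h1 := hsum t ht u hu.2 hu.1.symm
  have h2 := hsum t ht v hv.2 hv.1.symm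
  have h3 := hsum u hu.2 v hv.2 hvu.symm
  omega

/-- The reference sextet. -/
def sextet0 : ℕ := 11346418193321819767734968736706494159912975

theorem sextet0_facts : sextetKey sextet0 = true ∧ (masksOf 6 sextet0).contains 15 = true := by
  decide +kernel

theorem sextet0_mem : decSets 6 sextet0 ∈ sextets := decSets_mem_sextets sextet0_facts.1

theorem sextet_trans {S : Finset (Finset GolayPt)} (hS : S ∈ sextets) :
    ∃ g ∈ M24, g • decSets 6 sextet0 = S := by
  obtain ⟨t, ht, -⟩ := sextet_cover hS none
  obtain ⟨g, hg, hge⟩ := trans_subset t (by rw [hS.2.1 t ht]; norm_num)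
  rw [hS.2.1 t ht] at hge
  refine ⟨g, hg, sextet_eq_of_mem (smul_mem_sextets hg sextet0_mem) hS ?_ ht⟩
  rw [← hge]
  exact Finset.smul_mem_smul_finset
    (mem_decSets.mpr ⟨15, List.contains_iff_mem.mp sextet0_facts.2, rfl⟩)

theorem sextets_transitive : ∀ S ∈ sextets, ∀ S' ∈ sextets, ∃ g ∈ M24, g • S = S' := by
  intro S hS S' hS'
  obtain ⟨g, hg, rfl⟩ := sextet_trans hS
  obtain ⟨h, hh, rfl⟩ := sextet_trans hS'
  exact ⟨h * g⁻¹, mul_mem hh (inv_mem hg), by rw [mul_smul, inv_smul_smul]⟩

theorem sextets_finite : sextets.Finite := Set.toFinite _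

theorem sextets_ncard_le : sextets.ncard ≤ 1771 := by
  classical
  have hc : ((Finset.univ.erase (none : GolayPt)).powersetCard 3).card = 1771 := by
    rw [Finset.card_powersetCard, Finset.card_erase_of_mem (Finset.mem_univ _), Finset.card_univ,
      show Fintype.card GolayPt = 24 from rfl]
    decide +kernel
  let f : Finset (Finset GolayPt) → Finset GolayPt := fun S =>
    if h : ∃ t ∈ S, (none : GolayPt) ∈ t then h.choose.erase none else ∅
  rw [← hc, ← Set.ncard_coe_finset]
  refine Set.ncard_le_ncard_of_injOn f ?_ ?_ (Finset.finite_toSet _)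
  · intro S hS
    have h := sextet_cover hS none
    obtain ⟨ht, hn⟩ := h.choose_spec
    simp only [f, dif_pos h]
    rw [Finset.mem_coe, Finset.mem_powersetCard]
    exact ⟨Finset.erase_subset_erase _ (Finset.subset_univ _),
      by rw [Finset.card_erase_of_mem hn, hS.2.1 _ ht]⟩
  · intro S hS S' hS' he
    have h := sextet_cover hS none
    have h' := sextet_cover hS' none
    simp only [f, dif_pos h, dif_pos h'] at he
    have := congrArg (insert (none : GolayPt)) he
    rw [Finset.insert_erase h.choose_spec.2, Finset.insert_erase h'.choose_spec.2] at this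
    exact sextet_eq_of_mem hS hS' h.choose_spec.1 (this ▸ h'.choose_spec.1)

set_option maxHeartbeats 4000000 in
theorem sextet_keys : sextetTree.keys.all sextetKey = true ∧ sortedB sextetTree.keys = true ∧
    sextetTree.keys.length = 1771 := by
  decide +kernel

theorem sextet_keys_canon : sextetTree.keys.all (canonKey 6) = true := by
  refine List.all_eq_true.mpr fun k hk => ?_
  have := List.all_eq_true.mp sextet_keys.1 k hk
  simp only [sextetKey, Bool.and_eq_true] at this
  exact this.1

theorem sextet_hk : ∀ k ∈ sextetTree.keys, decSets 6 k ∈ sextets :=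
  fun k hk => decSets_mem_sextets (List.all_eq_true.mp sextet_keys.1 k hk)

theorem sextet_hX : ∀ S ∈ sextets, ∃ k ∈ sextetTree.keys, decSets 6 k = S := by
  classical
  intro S hS
  have hsub : (↑(sextetTree.keys.toFinset.image (decSets 6)) : Set _) ⊆ sextets := by
    intro T hT
    obtain ⟨k, hk, rfl⟩ := Finset.mem_image.mp hT
    exact sextet_hk k (List.mem_toFinset.mp hk)
  have hc : (sextetTree.keys.toFinset.image (decSets 6)).card = 1771 := by
    rw [Finset.card_image_of_injOn (by rw [List.coe_toFinset]; exact decSets_injOn sextet_keys_canon),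
      List.toFinset_card_of_nodup (sortedB_nodup sextet_keys.2.1), sextet_keys.2.2]
  have := Set.eq_of_subset_of_ncard_le hsub
    (by rw [Set.ncard_coe_finset, hc]; exact sextets_ncard_le) sextets_finite
  rw [← this] at hS
  obtain ⟨k, hk, he⟩ := Finset.mem_image.mp hS
  exact ⟨k, List.mem_toFinset.mp hk, he⟩

theorem sextets_ncard : sextets.ncard = 1771 := by
  classical
  have h : sextets = ↑(sextetTree.keys.toFinset.image (decSets 6)) := by
    ext S
    simp only [Finset.coe_image, List.coe_toFinset, Set.mem_image, Set.mem_ofPred_eq]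
    exact ⟨fun hS => sextet_hX S hS, fun ⟨k, hk, e⟩ => e ▸ sextet_hk k hk⟩
  rw [h, Set.ncard_coe_finset, Finset.card_image_of_injOn
    (by rw [List.coe_toFinset]; exact decSets_injOn sextet_keys_canon),
    List.toFinset_card_of_nodup (sortedB_nodup sextet_keys.2.1), sextet_keys.2.2]

end Cfsg.Agent.M24Sub
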