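import Cfsg.Agent.M24Geo.Dodecad
import Cfsg.Agent.M24Sub.Sextet
import Cfsg.Agent.M24Sub.DataPairSextet

/-! A pair of complementary dodecads and the sextets: suborbits 396, 495, 880. -/

set_option autoImplicit false

namespace Cfsg.Agent.M24Sub

open Cfsg.Agent.M24Geo

open scoped Pointwise
open Cfsg

/-- The invariant on keys. -/
def pairSextetKinv (k : ℕ) : ℕ := meetSq₂M (masksOf 2 279655521298335) (masksOf 6 k)

set_option maxHeartbeats 4000000 in
theorem pairSextet_cert : pairSextetTree.check (stepSets 6) pairSextetGens pairSextetRoots = true ∧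
    pairSextetGens.all autL = true ∧ (pairSextetGens.all fun l => stepSets 2 l 279655521298335 279655521298335) = true ∧
    (pairSextetRoots.map pairSextetKinv).Nodup ∧
    pairSextetRoots.all (fun k => (pairSextetTree.find k).isSome) = true := by
  decide +kernel

set_option maxHeartbeats 4000000 in
theorem pairSextet_keys : pairSextetTree.keys = sextetTree.keys := by decide +kernel

theorem pairSextet_hX : ∀ S ∈ sextets, ∃ k ∈ pairSextetTree.keys, decSets 6 k = S :=
  fun S hS => by rw [pairSextet_keys]; exact sextet_hX S hS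

theorem pairSextet_hk : ∀ k ∈ pairSextetTree.keys, decSets 6 k ∈ sextets :=
  fun k hk => sextet_hk k (by rw [← pairSextet_keys]; exact hk)

theorem pairSextet_sorted : sortedB pairSextetTree.keys = true := by rw [pairSextet_keys]; exact sextet_keys.2.1

theorem pairSextet_canon : pairSextetTree.keys.all (canonKey 6) = true := by
  rw [pairSextet_keys]; exact sextet_keys_canon

/-- Counts by the invariant. -/
def pairSextetCnt (v : ℕ) : ℕ := (pairSextetTree.keys.filter fun k => pairSextetKinv k == v).length

set_option maxHeartbeats 4000000 in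
theorem pairSextetCnt_values : pairSextetCnt 48 = 396 ∧ pairSextetCnt 64 = 495 ∧ pairSextetCnt 60 = 880 ∧
    pairSextetTree.keys.all (fun k => [48, 64, 60].contains (pairSextetKinv k)) = true := by
  decide +kernel

/-- The reference pair of complementary dodecads. -/
def dodPair0 : ℕ := 279655521298335

theorem dodPair0_canon : canonKey 2 dodPair0 = true ∧
    sameSet (masksOf 2 dodPair0) [dodecad0, dodecad0 ^^^ 16777215] = true := by decide +kernel

/-- The pairs of complementary dodecads. -/
def dodPairs : Set (Finset (Finset GolayPt)) :=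
  {P | ∃ d ∈ dodecads, P = {d, Finset.univ \ d}}

theorem dodPair0_eq : ({ofMask dodecad0, Finset.univ \ ofMask dodecad0} : Finset (Finset GolayPt)) =
    decSets 2 dodPair0 := by
  ext s
  rw [mem_decSets, ← Finset.compl_eq_univ_sdiff, ← ofMask_compl]
  simp only [sameSet_iff dodPair0_canon.2]
  simp [eq_comm]

theorem smul_pair (g : Equiv.Perm GolayPt) (d : Finset GolayPt) :
    g • ({d, Finset.univ \ d} : Finset (Finset GolayPt)) = {g • d, Finset.univ \ g • d} := by
  rw [Finset.smul_finset_insert, Finset.smul_finset_singleton, Finset.smul_finset_sdiff,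
    Finset.smul_finset_univ]

theorem smul_mem_dodPairs {g : Equiv.Perm GolayPt} (hg : g ∈ M24) {P : Finset (Finset GolayPt)}
    (hP : P ∈ dodPairs) : g • P ∈ dodPairs := by
  obtain ⟨d, hd, rfl⟩ := hP
  exact ⟨g • d, smul_mem_words hg hd, smul_pair g d⟩

theorem dodPair_trans {P : Finset (Finset GolayPt)} (hP : P ∈ dodPairs) :
    ∃ g ∈ M24, g • decSets 2 dodPair0 = P := by
  obtain ⟨d, hd, rfl⟩ := hP
  obtain ⟨g, hg, rfl⟩ := dodecad_trans hd
  exact ⟨g, hg, by rw [← dodPair0_eq, smul_pair]⟩

theorem pairSextet_kinv {k : ℕ} (hk : k ∈ pairSextetTree.keys) :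
    meetSq₂ (decSets 2 dodPair0) (decSets 6 k) = pairSextetKinv k :=
  meetSq₂_key dodPair0_canon.1 (List.all_eq_true.mp pairSextet_canon k hk)

/-- A pair of complementary dodecads and the sextets: suborbits 396, 495, 880. -/
noncomputable def pairSextetFamily : BiFamily (Finset (Finset GolayPt)) (Finset (Finset GolayPt)) where
  A := dodPairs
  Y := sextets
  R := meetSq₂
  cnt := pairSextetCnt
  smulA := fun _ hg _ hx => smul_mem_dodPairs hg hx
  smulY _ hg _ hx := smul_mem_sextets hg hx
  R_smul := fun g _ => meetSq₂_smul g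
  base := (decSets 2 dodPair0)
  base_mem := ⟨_, dodecad0_mem, dodPair0_eq.symm⟩
  trans_base := fun _ hx => dodPair_trans hx
  separates := bi_separates (base := (decSets 2 dodPair0)) (R := meetSq₂) (stepSets_sound 6) pairSextet_cert.1
    pairSextet_cert.2.1 pairSextet_cert.2.2.2.1 (fixes_decSets pairSextet_cert.2.1 pairSextet_cert.2.2.1)
    (fun g _ => meetSq₂_smul g) pairSextet_hX
    fun k hk => pairSextet_kinv (OT.mem_keys_of_isSome (List.all_eq_true.mp pairSextet_cert.2.2.2.2 k hk))
  count_base := bi_count (R := meetSq₂) (sortedB_nodup pairSextet_sorted) pairSextet_hX pairSextet_hk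
    (decSets_injOn pairSextet_canon) fun _ hk => pairSextet_kinv hk
  vals := [48, 64, 60]
  vals_base y hy := by
    obtain ⟨k, hk, rfl⟩ := pairSextet_hX y hy
    rw [pairSextet_kinv hk]
    exact List.contains_iff_mem.mp (List.all_eq_true.mp pairSextetCnt_values.2.2.2 k hk)

end Cfsg.Agent.M24Sub
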