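import Cfsg.Agent.M24Sub.BiFamily

/-! Splitting a set by the values of an invariant. -/

set_option autoImplicit false

namespace Cfsg.Agent.M24Sub

open Cfsg.Agent.M24Geo

theorem split_three {β : Type} {Y : Set β} {f : β → ℕ} {a b c : ℕ}
    (h : ∀ y ∈ Y, f y ∈ [a, b, c]) :
    Y = {y ∈ Y | f y = a} ∪ {y ∈ Y | f y = b} ∪ {y ∈ Y | f y = c} := by
  ext y
  simp only [Set.mem_union, Set.mem_ofPred_eq, ← and_or_left]
  exact ⟨fun hy => ⟨hy, by simpa [or_assoc] using h y hy⟩, fun hy => hy.1⟩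

theorem split_four {β : Type} {Y : Set β} {f : β → ℕ} {a b c d : ℕ}
    (h : ∀ y ∈ Y, f y ∈ [a, b, c, d]) :
    Y = {y ∈ Y | f y = a} ∪ {y ∈ Y | f y = b} ∪ {y ∈ Y | f y = c} ∪ {y ∈ Y | f y = d} := by
  ext y
  simp only [Set.mem_union, Set.mem_ofPred_eq, ← and_or_left]
  exact ⟨fun hy => ⟨hy, by simpa [or_assoc] using h y hy⟩, fun hy => hy.1⟩

end Cfsg.Agent.M24Sub
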