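import Cfsg.Agent.M24.Classes

/-!
A Sylow 2-subgroup of M24 as the stabiliser of a flag in the reference octad: two tetrads, each
split into two pairs, with its orbits.
-/

set_option autoImplicit false
set_option Elab.async false

namespace Cfsg.Agent.M24Sub

open Cfsg Cfsg.Agent.Golay Cfsg.Agent.M24

/-- The positions of the points of the reference octad, pairs and tetrads being consecutive. -/
def flagPts : List ℕ := [23, 0, 1, 2, 3, 5, 14, 17]

/-- The place of a position in the list (8 outside). -/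
def flagIdx (i : ℕ) : ℕ :=
  if i = 23 then 0 else if i = 0 then 1 else if i = 1 then 2 else if i = 2 then 3 else
  if i = 3 then 4 else if i = 5 then 5 else if i = 14 then 6 else if i = 17 then 7 else 8

/-- Pairs and tetrads are preserved. -/
def flagTest (f : ℕ → ℕ) : Bool :=
  flagPts.all fun i => Nat.blt (flagIdx (f i)) 8 && flagPts.all fun j =>
    (Nat.beq (flagIdx i / 2) (flagIdx j / 2) == Nat.beq (flagIdx (f i) / 2) (flagIdx (f j) / 2)) &&
      (Nat.beq (flagIdx i / 4) (flagIdx j / 4) == Nat.beq (flagIdx (f i) / 4) (flagIdx (f j) / 4))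

/-- The test, as a property. -/
def FlagPred (g : Equiv.Perm GolayPt) : Prop := flagTest (posFun g) = true

/-- Pruning. -/
def flagOK (im : List ℕ) : Bool :=
  (List.range 6).all fun j => Nat.ble im.length j ||
    (Nat.blt (flagIdx (im.getD j 0)) 8 && (List.range j).all fun l =>
      (Nat.beq (flagIdx (basePos l) / 2) (flagIdx (basePos j) / 2) ==
        Nat.beq (flagIdx (im.getD l 0) / 2) (flagIdx (im.getD j 0) / 2)) &&
      (Nat.beq (flagIdx (basePos l) / 4) (flagIdx (basePos j) / 4) ==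
        Nat.beq (flagIdx (im.getD l 0) / 4) (flagIdx (im.getD j 0) / 4)))

theorem flagPts_lt : ∀ i ∈ flagPts, i < 24 := by decide

theorem basePos_flag : ∀ j < 6, basePos j ∈ flagPts := by decide +kernel

theorem mem_flagPts_iff : ∀ i < 24, flagIdx i < 8 ↔ i ∈ flagPts := by decide +kernel

theorem flagPred_iff {g : Equiv.Perm GolayPt} :
    FlagPred g ↔ ∀ i ∈ flagPts, posFun g i ∈ flagPts ∧ ∀ j ∈ flagPts,
      (flagIdx i / 2 = flagIdx j / 2 ↔ flagIdx (posFun g i) / 2 = flagIdx (posFun g j) / 2) ∧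
      (flagIdx i / 4 = flagIdx j / 4 ↔ flagIdx (posFun g i) / 4 = flagIdx (posFun g j) / 4) := by
  have e : ∀ a b c d : ℕ, ((Nat.beq a b == Nat.beq c d) = true) ↔ (a = b ↔ c = d) := by
    intro a b c d
    rw [beq_iff_eq, Bool.eq_iff_iff, Nat.beq_eq, Nat.beq_eq]
  simp only [FlagPred, flagTest, List.all_eq_true, Bool.and_eq_true, Nat.blt_eq, e]
  exact forall₂_congr fun i _ => and_congr_left fun _ => mem_flagPts_iff _ (posFun_lt g i)

theorem posFun_mul (g h : Equiv.Perm GolayPt) (i : ℕ) :
    posFun (g * h) i = posFun g (posFun h i) := by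
  rw [posFun, posFun, posFun, ptOf_ptIdx, Equiv.Perm.mul_apply]

theorem flagPred_mul {g h : Equiv.Perm GolayPt} (hg : FlagPred g) (hh : FlagPred h) :
    FlagPred (g * h) := by
  rw [flagPred_iff] at hg hh ⊢
  intro i hi
  obtain ⟨hi', hij⟩ := hh i hi
  refine ⟨by rw [posFun_mul]; exact (hg _ hi').1, fun j hj => ?_⟩
  simp only [posFun_mul]
  exact ⟨(hij j hj).1.trans ((hg _ hi').2 _ (hh j hj).1).1,
    (hij j hj).2.trans ((hg _ hi').2 _ (hh j hj).1).2⟩

theorem flagPred_one : FlagPred 1 := by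
  rw [flagPred_iff]
  intro i hi
  have e : ∀ j ∈ flagPts, posFun 1 j = j := fun j hj => by
    rw [posFun, Equiv.Perm.one_apply, ptIdx_ptOf j (flagPts_lt j hj)]
  refine ⟨by rw [e i hi]; exact hi, fun j hj => ?_⟩
  rw [e i hi, e j hj]
  exact ⟨Iff.rfl, Iff.rfl⟩

/-- The stabiliser of the flag. -/
noncomputable def flagGroup : Subgroup (Equiv.Perm GolayPt) where
  carrier := {g | g ∈ Cfsg.M24 ∧ FlagPred g}
  one_mem' := ⟨one_mem _, flagPred_one⟩
  mul_mem' ha hb := ⟨mul_mem ha.1 hb.1, flagPred_mul ha.2 hb.2⟩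
  inv_mem' {a} ha := by
    have hpow : ∀ n : ℕ, a ^ n ∈ Cfsg.M24 ∧ FlagPred (a ^ n) := by
      intro n
      induction n with
      | zero => rw [pow_zero]; exact ⟨one_mem _, flagPred_one⟩
      | succ n ih => rw [pow_succ]; exact ⟨mul_mem ih.1 ha.1, flagPred_mul ih.2 ha.2⟩
    have e : a⁻¹ = a ^ (orderOf a - 1) := inv_eq_of_mul_eq_one_right (by
      rw [← pow_succ', Nat.sub_add_cancel (orderOf_pos a), pow_orderOf_eq_one])
    show a⁻¹ ∈ Cfsg.M24 ∧ FlagPred a⁻¹
    rw [e]
    exact hpow _

theorem mem_flagGroup {g : Equiv.Perm GolayPt} :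
    g ∈ flagGroup ↔ g ∈ Cfsg.M24 ∧ FlagPred g := Iff.rfl

theorem tests_flag : ScanTests FlagPred flagOK flagTest := by
  refine ⟨fun f f' h _ => ?_, fun g _ => Iff.rfl, fun g _ hp k _ => ?_⟩
  · rw [Bool.eq_iff_iff]
    simp only [flagTest, List.all_eq_true, Bool.and_eq_true]
    exact forall₂_congr fun i hi => by
      rw [h i (flagPts_lt i hi)]
      exact and_congr_right fun _ => forall₂_congr fun j hj => by rw [h j (flagPts_lt j hj)]
  · rw [FlagPred, flagTest] at hp
    simp only [List.all_eq_true, Bool.and_eq_true] at hp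
    simp only [flagOK, List.all_eq_true, List.mem_range, Bool.or_eq_true, Bool.and_eq_true,
      baseImages_length, Nat.ble_eq]
    intro j hj
    by_cases hjk : j < k
    · right
      have hb : ∀ l, l ≤ j → (baseImages g k).getD l 0 = posFun g (basePos l) := fun l hl => by
        rw [baseImages_getD g (show l < k by omega), ← ptIdx_basePt l (by omega), posFun_ptIdx]
      rw [hb j le_rfl]
      refine ⟨(hp _ (basePos_flag j hj)).1, fun l hl => ?_⟩
      rw [hb l hl.le]
      exact (hp _ (basePos_flag l (by omega))).2 _ (basePos_flag j hj)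
    · exact Or.inl (Nat.le_of_not_lt hjk)

theorem flag_scan_length : (scan flagOK flagTest).length = 1024 := by decide +kernel

theorem card_flagGroup : Nat.card flagGroup = 1024 := by
  rw [← flag_scan_length, ← scan_card tests_flag]
  exact Nat.card_congr
    { toFun := fun g => ⟨g.1, g.2⟩
      invFun := fun g => ⟨g.1, g.2⟩
      left_inv := fun _ => rfl
      right_inv := fun _ => rfl }

/-- Some element of the flag group with the first base point fixed or moved as asked. -/
def moveTo (a b q : ℕ) (fix0 : Bool) : Bool :=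
  (scan flagOK flagTest).any fun P => Nat.beq (act P a) q &&
    (!fix0 || Nat.beq (act P b) b)

theorem flag_orbit_checks :
    ((flagPts.all fun q => moveTo 23 23 q false) &&
    (([1, 2] : List ℕ).all fun q => moveTo 1 23 q true) &&
    (([3, 5, 14, 17] : List ℕ).all fun q => moveTo 3 23 q true) &&
    ((List.range 24).all fun q => flagPts.contains q || moveTo 4 23 q true)) = true := by
  decide +kernel

theorem moveTo_spec {a b q : ℕ} {fix0 : Bool} (ha : a < 24) (hb : b < 24) (hq : q < 24)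
    (h : moveTo a b q fix0 = true) :
    ∃ g ∈ flagGroup, g (ptOf a) = ptOf q ∧ (fix0 = true → g (ptOf b) = ptOf b) := by
  obtain ⟨P, hP, hPq⟩ := List.any_eq_true.1 h
  obtain ⟨g, hg, hp, hr⟩ := (scan_spec tests_flag).1 P hP
  simp only [Bool.and_eq_true, Nat.beq_eq, Bool.or_eq_true, Bool.not_eq_true'] at hPq
  refine ⟨g, ⟨hg, hp⟩, ptIdx_injective ?_, fun h0 => ptIdx_injective ?_⟩
  · rw [hr, ptIdx_ptOf a ha, ptIdx_ptOf q hq, hPq.1]
  · subst h0
    rcases hPq.2 with h | h
    · exact absurd h Bool.false_ne_true.symm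
    · rw [hr, ptIdx_ptOf b hb, h]

theorem flag_orbit_octad {q : ℕ} (hq : q ∈ flagPts) :
    ∃ g ∈ flagGroup, g (ptOf 23) = ptOf q := by
  have h := flag_orbit_checks
  simp only [Bool.and_eq_true, List.all_eq_true] at h
  obtain ⟨g, hg, e, -⟩ := moveTo_spec (by norm_num) (by norm_num) (flagPts_lt q hq) (h.1.1.1 q hq)
  exact ⟨g, hg, e⟩

/-- The flag group fixing the first base point moves `a` to `q`. -/
def Moves (a q : ℕ) : Prop :=
  ∃ g ∈ flagGroup, g (ptOf a) = ptOf q ∧ g (ptOf 23) = ptOf 23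

theorem flag_moves_pair {q : ℕ} (hq : q = 1 ∨ q = 2) : Moves 1 q := by
  have h := flag_orbit_checks
  simp only [Bool.and_eq_true, List.all_eq_true] at h
  obtain ⟨g, hg, e, e'⟩ := moveTo_spec (by norm_num) (by norm_num) (by omega)
    (h.1.1.2 q (by simpa using hq))
  exact ⟨g, hg, e, e' rfl⟩

theorem flag_moves_tetrad {q : ℕ} (hq : q = 3 ∨ q = 5 ∨ q = 14 ∨ q = 17) : Moves 3 q := by
  have h := flag_orbit_checks
  simp only [Bool.and_eq_true, List.all_eq_true] at h
  obtain ⟨g, hg, e, e'⟩ := moveTo_spec (by norm_num) (by norm_num) (by omega)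
    (h.1.2 q (by simpa using hq))
  exact ⟨g, hg, e, e' rfl⟩

theorem flag_moves_rest {q : ℕ} (hq : q < 24) (hq' : q ∉ flagPts) : Moves 4 q := by
  have h := flag_orbit_checks
  simp only [Bool.and_eq_true] at h
  have h' := List.all_eq_true.1 h.2 q (List.mem_range.2 hq)
  rw [Bool.or_eq_true] at h'
  rcases h' with h' | h'
  · exact absurd (List.contains_iff_mem.1 h') hq'
  · obtain ⟨g, hg, e, e'⟩ := moveTo_spec (by norm_num) (by norm_num) hq h'
    exact ⟨g, hg, e, e' rfl⟩

end Cfsg.Agent.M24Sub
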