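import Cfsg.Agent.M24Geo.Small
import Cfsg.Agent.M24Sub.Sextet
import Cfsg.Agent.M24Sub.DataTriadSextet

/-! A triad and the sextets: suborbits 21, 630, 1120. -/

set_option autoImplicit false

namespace Cfsg.Agent.M24Sub

open Cfsg.Agent.M24Geo

open scoped Pointwise
open Cfsg

/-- The invariant on keys. -/
def triadSextetKinv (k : ℕ) : ℕ := ((masksOf 6 k).map fun m => bif m &&& 7 == 0 then 0 else 1).sum

set_option maxHeartbeats 4000000 in
theorem triadSextet_cert : triadSextetTree.check (stepSets 6) triadGens triadSextetRoots = true ∧
    triadGens.all autL = true ∧ (triadGens.all fun l => stepMask l 7 7) = true ∧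
    (triadSextetRoots.map triadSextetKinv).Nodup ∧
    triadSextetRoots.all (fun k => (triadSextetTree.find k).isSome) = true := by
  decide +kernel

set_option maxHeartbeats 4000000 in
theorem triadSextet_keys : triadSextetTree.keys = sextetTree.keys := by decide +kernel

theorem triadSextet_hX : ∀ S ∈ sextets, ∃ k ∈ triadSextetTree.keys, decSets 6 k = S :=
  fun S hS => by rw [triadSextet_keys]; exact sextet_hX S hS

theorem triadSextet_hk : ∀ k ∈ triadSextetTree.keys, decSets 6 k ∈ sextets :=
  fun k hk => sextet_hk k (by rw [← triadSextet_keys]; exact hk)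

theorem triadSextet_sorted : sortedB triadSextetTree.keys = true := by rw [triadSextet_keys]; exact sextet_keys.2.1

theorem triadSextet_canon : triadSextetTree.keys.all (canonKey 6) = true := by
  rw [triadSextet_keys]; exact sextet_keys_canon

/-- Counts by the invariant. -/
def triadSextetCnt (v : ℕ) : ℕ := (triadSextetTree.keys.filter fun k => triadSextetKinv k == v).length

set_option maxHeartbeats 4000000 in
theorem triadSextetCnt_values : triadSextetCnt 1 = 21 ∧ triadSextetCnt 2 = 630 ∧ triadSextetCnt 3 = 1120 ∧
    triadSextetTree.keys.all (fun k => [1, 2, 3].contains (triadSextetKinv k)) = true := by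
  decide +kernel

/-- The number of members of a family meeting a set. -/
def meetCount (Y : Finset GolayPt) (S : Finset (Finset GolayPt)) : ℕ :=
  (S.filter fun t => (t ∩ Y).Nonempty).card

theorem meetCount_smul (g : Equiv.Perm GolayPt) (Y : Finset GolayPt)
    (S : Finset (Finset GolayPt)) : meetCount (g • Y) (g • S) = meetCount Y S := by
  simp only [meetCount, Finset.card_filter]
  rw [sum_smul_family]
  simp [← Finset.smul_finset_inter]

theorem triadSextet_kinv {k : ℕ} (hk : k ∈ triadSextetTree.keys) :
    meetCount (ofMask 7) (decSets 6 k) = triadSextetKinv k :=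
  by
  rw [meetCount, Finset.card_filter,
    decSets_sum (List.all_eq_true.mp triadSextet_canon k hk), triadSextetKinv]
  congr 1
  refine List.map_congr_left fun m hm => ?_
  have hne : (ofMask m ∩ ofMask 7).Nonempty ↔ ¬ (m &&& 7 = 0) := by
    rw [← Finset.not_disjoint_iff_nonempty_inter, ofMask_disjoint_iff (by norm_num)]
  cases h : m &&& 7 == 0 with
  | false => rw [if_pos (hne.mpr (by simpa using h)), cond_false]
  | true => rw [if_neg (fun e => hne.mp e (by simpa using h)), cond_true]

/-- A triad and the sextets: suborbits 21, 630, 1120. -/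
noncomputable def triadSextetFamily : BiFamily (Finset GolayPt) (Finset (Finset GolayPt)) where
  A := {s | s.card = 3}
  Y := sextets
  R := meetCount
  cnt := triadSextetCnt
  smulA := fun g _ x hx => (Finset.card_smul_finset g x).trans hx
  smulY _ hg _ hx := smul_mem_sextets hg hx
  R_smul := fun g _ => meetCount_smul g
  base := (ofMask 7)
  base_mem := (by simp only [Set.mem_ofPred_eq, card_ofMask]; decide)
  trans_base := triadFamily.trans_base
  separates := bi_separates (base := (ofMask 7)) (R := meetCount) (stepSets_sound 6) triadSextet_cert.1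
    triadSextet_cert.2.1 triadSextet_cert.2.2.2.1 (fixes_ofMask triadSextet_cert.2.1 triadSextet_cert.2.2.1)
    (fun g _ => meetCount_smul g) triadSextet_hX
    fun k hk => triadSextet_kinv (OT.mem_keys_of_isSome (List.all_eq_true.mp triadSextet_cert.2.2.2.2 k hk))
  count_base := bi_count (R := meetCount) (sortedB_nodup triadSextet_sorted) triadSextet_hX triadSextet_hk
    (decSets_injOn triadSextet_canon) fun _ hk => triadSextet_kinv hk
  vals := [1, 2, 3]
  vals_base y hy := by
    obtain ⟨k, hk, rfl⟩ := triadSextet_hX y hy
    rw [triadSextet_kinv hk]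
    exact List.contains_iff_mem.mp (List.all_eq_true.mp triadSextetCnt_values.2.2.2 k hk)

end Cfsg.Agent.M24Sub
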