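import Cfsg.Agent.M24Sub.Pack
import Cfsg.Agent.M24Geo.Octad
import Cfsg.Agent.M24Sub.DataTrio

/-!
Trios: two members determine the trio, `M24` is transitive on them, and they are the 3795 listed
ones.
-/

set_option autoImplicit false

namespace Cfsg.Agent.M24Sub

open Cfsg.Agent.M24Geo

open scoped Pointwise
open Cfsg

theorem trio_pair_card {T : Finset (Finset GolayPt)} (hT : T ∈ trios) {a b : Finset GolayPt}
    (ha : a ∈ T) (hb : b ∈ T) (hne : a ≠ b) : (a ∩ b).card = 0 ∧ (a ∪ b).card = 16 := by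
  have hd := hT.2.2 a ha b hb hne
  refine ⟨Finset.card_eq_zero.mpr (Finset.disjoint_iff_inter_eq_empty.mp hd), ?_⟩
  rw [Finset.card_union_of_disjoint hd, (hT.2.1 a ha).2, (hT.2.1 b hb).2]

theorem trio_eq {T : Finset (Finset GolayPt)} (hT : T ∈ trios) {a b : Finset GolayPt}
    (ha : a ∈ T) (hb : b ∈ T) (hne : a ≠ b) : T = {a, b, (a ∪ b)ᶜ} := by
  have hu := (trio_pair_card hT ha hb hne).2
  have hcc : (a ∪ b)ᶜ.card = 8 := by
    rw [Finset.card_compl, hu]
    rfl
  obtain ⟨c, hc⟩ : ((T.erase a).erase b).Nonempty := Finset.card_pos.mp (by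
    rw [Finset.card_erase_of_mem (Finset.mem_erase.mpr ⟨hne.symm, hb⟩),
      Finset.card_erase_of_mem ha, hT.1]
    norm_num)
  simp only [Finset.mem_erase] at hc
  obtain ⟨hcb, hca, hcT⟩ := hc
  have hce : c = (a ∪ b)ᶜ := by
    refine Finset.eq_of_subset_of_card_le (fun p hp => ?_) (by rw [hcc, (hT.2.1 c hcT).2])
    rw [Finset.mem_compl, Finset.mem_union]
    rintro (h | h)
    · exact Finset.disjoint_left.mp (hT.2.2 c hcT a ha hca) hp h
    · exact Finset.disjoint_left.mp (hT.2.2 c hcT b hb hcb) hp h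
  symm
  refine Finset.eq_of_subset_of_card_le (fun x hx => ?_) ?_
  · simp only [Finset.mem_insert, Finset.mem_singleton] at hx
    rcases hx with rfl | rfl | rfl
    exacts [ha, hb, hce ▸ hcT]
  · rw [← hce, hT.1, Finset.card_insert_of_notMem (by simp [hne, hca.symm]),
      Finset.card_insert_of_notMem (by simp [hcb.symm]), Finset.card_singleton]

theorem trio_cover {T : Finset (Finset GolayPt)} (hT : T ∈ trios) (p : GolayPt) :
    ∃ a ∈ T, p ∈ a := by
  have h : (T.biUnion id).card = 24 := by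
    rw [Finset.card_biUnion (s := T) (t := id) fun a ha b hb hne => hT.2.2 a ha b hb hne]
    simp only [id]
    rw [Finset.sum_congr rfl fun t ht => (hT.2.1 t ht).2, Finset.sum_const, hT.1]
    rfl
  have : T.biUnion id = Finset.univ := Finset.eq_univ_of_card _ (by rw [h]; rfl)
  have hp : p ∈ T.biUnion id := this ▸ Finset.mem_univ p
  simpa using hp

theorem smul_mem_trios {g : Equiv.Perm GolayPt} (hg : g ∈ M24) {T : Finset (Finset GolayPt)}
    (hT : T ∈ trios) : g • T ∈ trios := by
  refine ⟨by rw [Finset.card_smul_finset]; exact hT.1, ?_, ?_⟩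
  · intro t ht
    obtain ⟨u, hu, rfl⟩ := Finset.mem_smul_finset.mp ht
    exact smul_mem_words hg (hT.2.1 u hu)
  · intro t ht u hu hne
    obtain ⟨t', ht', rfl⟩ := Finset.mem_smul_finset.mp ht
    obtain ⟨u', hu', rfl⟩ := Finset.mem_smul_finset.mp hu
    have := hT.2.2 t' ht' u' hu' fun e => hne (by rw [e])
    rw [Finset.disjoint_iff_inter_eq_empty] at this ⊢
    rw [← Finset.smul_finset_inter, this, Finset.smul_finset_empty]

/-- A key of a trio. -/
def trioKey (k : ℕ) : Bool :=
  canonKey 3 k && ((masksOf 3 k).all fun a => (octadTree.find a).isSome) &&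
    (masksOf 3 k).all fun a => (masksOf 3 k).all fun b => a == b || a &&& b == 0

theorem decSets_mem_trios {k : ℕ} (h : trioKey k = true) : decSets 3 k ∈ trios := by
  simp only [trioKey, Bool.and_eq_true, List.all_eq_true, beq_iff_eq, Bool.or_eq_true] at h
  refine ⟨decSets_card h.1.1, ?_, ?_⟩
  · intro t ht
    obtain ⟨a, ha, rfl⟩ := mem_decSets.mp ht
    exact mem_wordsOfWeight_iff.mpr ⟨_, List.all_eq_true.mp octad_keys_word _
      (OT.mem_keys_of_isSome (h.1.2 a ha)), rfl⟩
  · intro t ht u hu hne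
    obtain ⟨a, ha, rfl⟩ := mem_decSets.mp ht
    obtain ⟨b, hb, rfl⟩ := mem_decSets.mp hu
    exact (ofMask_disjoint_iff (masksOf_lt 3 k b hb)).mpr
      ((h.2 a ha b hb).resolve_left fun e => hne (by rw [e]))

/-- The reference trio, through the reference octad. -/
def trio0 : ℕ := 2365623926190808268895

theorem trio0_facts : trioKey trio0 = true ∧ masksOf 3 trio0 = [octad0, 8077824, 8404384] := by
  decide +kernel

theorem trio0_mem : decSets 3 trio0 ∈ trios := decSets_mem_trios trio0_facts.1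

theorem octad0_mem_trio0 : ofMask octad0 ∈ decSets 3 trio0 :=
  mem_decSets.mpr ⟨octad0, by rw [trio0_facts.2]; simp, rfl⟩

theorem trio_trans {T : Finset (Finset GolayPt)} (hT : T ∈ trios) :
    ∃ g ∈ M24, g • decSets 3 trio0 = T := by
  obtain ⟨a, ha, -⟩ := trio_cover hT none
  obtain ⟨b, hb, hba⟩ := Finset.exists_mem_ne (by rw [hT.1]; norm_num : 1 < T.card) a
  obtain ⟨g, hg, hga⟩ := octad_trans (hT.2.1 a ha)
  have hb0 : ofMask 8077824 ∈ decSets 3 trio0 :=
    mem_decSets.mpr ⟨_, by rw [trio0_facts.2]; simp, rfl⟩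
  have hne0 : ofMask octad0 ≠ ofMask 8077824 := fun e =>
    absurd (ofMask_inj (by decide) (by norm_num) e) (by decide)
  have hgT := smul_mem_trios hg trio0_mem
  have hga' : a ∈ g • decSets 3 trio0 := hga ▸ Finset.smul_mem_smul_finset octad0_mem_trio0
  have hgne : a ≠ g • ofMask 8077824 := hga ▸ fun e => hne0 (smul_left_cancel g e)
  obtain ⟨h, hh, hha, hhb⟩ := octadFamily.stab_trans (hT.2.1 a ha)
    (hgT.2.1 _ (Finset.smul_mem_smul_finset hb0)) (hT.2.1 b hb)
    ((trio_pair_card hgT hga' (Finset.smul_mem_smul_finset hb0) hgne).1.trans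
      (trio_pair_card hT ha hb hba.symm).1.symm)
  refine ⟨h * g, mul_mem hh hg, ?_⟩
  have hm := smul_mem_trios hh hgT
  have h1 : a ∈ h • g • decSets 3 trio0 := by
    have := Finset.smul_mem_smul_finset (a := h) hga'
    rwa [hha] at this
  have h2 : b ∈ h • g • decSets 3 trio0 := by
    have := Finset.smul_mem_smul_finset (a := h) (Finset.smul_mem_smul_finset (a := g) hb0)
    rwa [hhb] at this
  rw [mul_smul, trio_eq hT ha hb hba.symm, trio_eq hm h1 h2 hba.symm]

theorem trios_transitive : ∀ T ∈ trios, ∀ T' ∈ trios, ∃ g ∈ M24, g • T = T' := by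
  intro S hS S' hS'
  obtain ⟨g, hg, rfl⟩ := trio_trans hS
  obtain ⟨h, hh, rfl⟩ := trio_trans hS'
  exact ⟨h * g⁻¹, mul_mem hh (inv_mem hg), by rw [mul_smul, inv_smul_smul]⟩

theorem trios_finite : trios.Finite := Set.toFinite _

set_option maxHeartbeats 4000000 in
theorem trio_keys : trioTree.keys.all trioKey = true ∧ sortedB trioTree.keys = true ∧
    trioTree.keys.length = 3795 := by
  decide +kernel

/-- The key of three masks in any order. -/
def trioPack (a b c : ℕ) : ℕ :=
  bif Nat.ble a b then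
    bif Nat.ble b c then pack [a, b, c] else bif Nat.ble a c then pack [a, c, b] else pack [c, a, b]
  else
    bif Nat.ble a c then pack [b, a, c] else bif Nat.ble b c then pack [b, c, a] else pack [c, b, a]

/-- The trio of two disjoint octads is listed. -/
def trioListed (a b : ℕ) : Bool :=
  !(a &&& b == 0) ||
    ((trioTree.find (trioPack a b ((a ||| b) ^^^ 16777215))).isSome &&
      sameSet (masksOf 3 (trioPack a b ((a ||| b) ^^^ 16777215))) [a, b, (a ||| b) ^^^ 16777215])

set_option maxHeartbeats 4000000 in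
theorem trio_pairs_listed : ((octadTree.keys.filter fun a => a.testBit 0).all fun a =>
    octadTree.keys.all fun b => trioListed a b) = true := by
  decide +kernel

theorem trio_keys_canon : trioTree.keys.all (canonKey 3) = true := by
  refine List.all_eq_true.mpr fun k hk => ?_
  have := List.all_eq_true.mp trio_keys.1 k hk
  simp only [trioKey, Bool.and_eq_true] at this
  exact this.1.1

theorem trio_hk : ∀ k ∈ trioTree.keys, decSets 3 k ∈ trios :=
  fun k hk => decSets_mem_trios (List.all_eq_true.mp trio_keys.1 k hk)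

theorem trio_hX : ∀ T ∈ trios, ∃ k ∈ trioTree.keys, decSets 3 k = T := by
  intro T hT
  obtain ⟨a, ha, hn⟩ := trio_cover hT none
  obtain ⟨b, hb, hba⟩ := Finset.exists_mem_ne (by rw [hT.1]; norm_num : 1 < T.card) a
  obtain ⟨ma, hma, rfl⟩ := octad_hX a (hT.2.1 a ha)
  obtain ⟨mb, hmb, rfl⟩ := octad_hX b (hT.2.1 b hb)
  have h0 : ma &&& mb = 0 :=
    (ofMask_disjoint_iff (key_lt octad_keys_word hmb)).mp (hT.2.2 _ ha _ hb hba.symm)
  have h := List.all_eq_true.mp (List.all_eq_true.mp trio_pairs_listed ma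
    (List.mem_filter.mpr ⟨hma, mem_ofMask.mp hn⟩)) mb hmb
  simp only [trioListed, h0, beq_self_eq_true, Bool.not_true, Bool.false_or,
    Bool.and_eq_true] at h
  refine ⟨_, OT.mem_keys_of_isSome h.1, ?_⟩
  rw [trio_eq hT ha hb hba.symm, ← ofMask_or, ← ofMask_compl]
  ext s
  rw [mem_decSets]
  simp only [sameSet_iff h.2, Finset.mem_insert, Finset.mem_singleton]
  simp [eq_comm]

theorem trios_ncard : trios.ncard = 3795 := by
  classical
  have h : trios = ↑(trioTree.keys.toFinset.image (decSets 3)) := by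
    ext S
    simp only [Finset.coe_image, List.coe_toFinset, Set.mem_image, Set.mem_ofPred_eq]
    exact ⟨fun hS => trio_hX S hS, fun ⟨k, hk, e⟩ => e ▸ trio_hk k hk⟩
  rw [h, Set.ncard_coe_finset, Finset.card_image_of_injOn
    (by rw [List.coe_toFinset]; exact decSets_injOn trio_keys_canon),
    List.toFinset_card_of_nodup (sortedB_nodup trio_keys.2.1), trio_keys.2.2]

end Cfsg.Agent.M24Sub
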