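import Cfsg.Agent.M24Sub.Trio
import Cfsg.Agent.M24Sub.Sextet
import Cfsg.Agent.M24Sub.DataTrioSextet

/-! A trio and the sextets: suborbits 7, 84, 336, 1344. -/

set_option autoImplicit false
set_option Elab.async false

namespace Cfsg.Agent.M24Sub

open Cfsg.Agent.M24Geo

open scoped Pointwise
open Cfsg

/-- The invariant on keys. -/
def trioSextetKinv (k : ℕ) : ℕ := meetSq₂M (masksOf 3 trio0) (masksOf 6 k)

set_option maxHeartbeats 4000000 in
theorem trioSextet_cert : trioSextetTree.check (stepSets 6) trioSextetGens trioSextetRoots = true ∧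
    trioSextetGens.all autL = true ∧ (trioSextetGens.all fun l => stepSets 3 l trio0 trio0) = true ∧
    (trioSextetRoots.map trioSextetKinv).Nodup ∧
    trioSextetRoots.all (fun k => (trioSextetTree.find k).isSome) = true := by
  decide +kernel

set_option maxHeartbeats 4000000 in
theorem trioSextet_keys : trioSextetTree.keys = sextetTree.keys := by decide +kernel

theorem trioSextet_hX : ∀ S ∈ sextets, ∃ k ∈ trioSextetTree.keys, decSets 6 k = S :=
  fun S hS => by rw [trioSextet_keys]; exact sextet_hX S hS

theorem trioSextet_hk : ∀ k ∈ trioSextetTree.keys, decSets 6 k ∈ sextets :=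
  fun k hk => sextet_hk k (by rw [← trioSextet_keys]; exact hk)

theorem trioSextet_sorted : sortedB trioSextetTree.keys = true := by rw [trioSextet_keys]; exact sextet_keys.2.1

theorem trioSextet_canon : trioSextetTree.keys.all (canonKey 6) = true := by
  rw [trioSextet_keys]; exact sextet_keys_canon

/-- Counts by the invariant. -/
def trioSextetCnt (v : ℕ) : ℕ := (trioSextetTree.keys.filter fun k => trioSextetKinv k == v).length

/-- A piece of the keys; the counts are evaluated piece by piece to bound the checker's memory. -/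
def trioSextetPart (i : ℕ) : List ℕ := (trioSextetTree.keys.drop (i * 300)).take 300

/-- The counts of the invariant on a piece, with the range check. -/
def trioSextetPartOK (i : ℕ) (c : List ℕ) : Bool :=
  let vs := (trioSextetPart i).map trioSextetKinv
  ([96, 64, 48, 44].map fun v => (vs.filter fun x => x == v).length) == c &&
    vs.all fun x => [96, 64, 48, 44].contains x

theorem trioSextetPart_count {i : ℕ} {a b c d : ℕ} (h : trioSextetPartOK i [a, b, c, d] = true) :
    ((trioSextetPart i).filter fun k => trioSextetKinv k == 96).length = a ∧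
    ((trioSextetPart i).filter fun k => trioSextetKinv k == 64).length = b ∧
    ((trioSextetPart i).filter fun k => trioSextetKinv k == 48).length = c ∧
    ((trioSextetPart i).filter fun k => trioSextetKinv k == 44).length = d ∧
    (trioSextetPart i).all (fun k => [96, 64, 48, 44].contains (trioSextetKinv k)) = true := by
  simp only [trioSextetPartOK, Bool.and_eq_true, beq_iff_eq, List.map_cons, List.map_nil,
    List.cons.injEq, and_true, List.filter_map, List.length_map, List.all_map] at h
  exact ⟨h.1.1, h.1.2.1, h.1.2.2.1, h.1.2.2.2, h.2⟩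

theorem trioSextetPart_ok0 : trioSextetPartOK 0 [4, 30, 86, 180] = true := by decide +kernel
theorem trioSextetPart_ok1 : trioSextetPartOK 1 [3, 20, 46, 231] = true := by decide +kernel
theorem trioSextetPart_ok2 : trioSextetPartOK 2 [0, 11, 65, 224] = true := by decide +kernel
theorem trioSextetPart_ok3 : trioSextetPartOK 3 [0, 6, 34, 260] = true := by decide +kernel
theorem trioSextetPart_ok4 : trioSextetPartOK 4 [0, 8, 51, 241] = true := by decide +kernel
theorem trioSextetPart_ok5 : trioSextetPartOK 5 [0, 9, 54, 208] = true := by decide +kernel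

theorem trioSextet_keys_split : trioSextetTree.keys = trioSextetPart 0 ++ trioSextetPart 1 ++
    trioSextetPart 2 ++ trioSextetPart 3 ++ trioSextetPart 4 ++ trioSextetPart 5 := by
  decide +kernel

theorem trioSextetCnt_values : trioSextetCnt 96 = 7 ∧ trioSextetCnt 64 = 84 ∧ trioSextetCnt 48 = 336 ∧ trioSextetCnt 44 = 1344 ∧
    trioSextetTree.keys.all (fun k => [96, 64, 48, 44].contains (trioSextetKinv k)) = true := by
  obtain ⟨a0, b0, c0, d0, e0⟩ := trioSextetPart_count trioSextetPart_ok0
  obtain ⟨a1, b1, c1, d1, e1⟩ := trioSextetPart_count trioSextetPart_ok1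
  obtain ⟨a2, b2, c2, d2, e2⟩ := trioSextetPart_count trioSextetPart_ok2
  obtain ⟨a3, b3, c3, d3, e3⟩ := trioSextetPart_count trioSextetPart_ok3
  obtain ⟨a4, b4, c4, d4, e4⟩ := trioSextetPart_count trioSextetPart_ok4
  obtain ⟨a5, b5, c5, d5, e5⟩ := trioSextetPart_count trioSextetPart_ok5
  simp only [trioSextetCnt, trioSextet_keys_split, List.filter_append, List.length_append, List.all_append,
    a0, a1, a2, a3, a4, a5, b0, b1, b2, b3, b4, b5, c0, c1, c2, c3, c4, c5, d0, d1, d2, d3, d4, d5, e0, e1, e2, e3, e4, e5]
  decide

theorem trio0_canon : canonKey 3 trio0 = true := by decide +kernel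

theorem trioSextet_kinv {k : ℕ} (hk : k ∈ trioSextetTree.keys) :
    meetSq₂ (decSets 3 trio0) (decSets 6 k) = trioSextetKinv k :=
  meetSq₂_key trio0_canon (List.all_eq_true.mp trioSextet_canon k hk)

/-- A trio and the sextets: suborbits 7, 84, 336, 1344. -/
noncomputable def trioSextetFamily : BiFamily (Finset (Finset GolayPt)) (Finset (Finset GolayPt)) where
  A := trios
  Y := sextets
  R := meetSq₂
  cnt := trioSextetCnt
  smulA := fun _ hg _ hx => smul_mem_trios hg hx
  smulY _ hg _ hx := smul_mem_sextets hg hx
  R_smul := fun g _ => meetSq₂_smul g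
  base := (decSets 3 trio0)
  base_mem := trio0_mem
  trans_base := fun _ hx => trio_trans hx
  separates := bi_separates (base := (decSets 3 trio0)) (R := meetSq₂) (stepSets_sound 6) trioSextet_cert.1
    trioSextet_cert.2.1 trioSextet_cert.2.2.2.1 (fixes_decSets trioSextet_cert.2.1 trioSextet_cert.2.2.1)
    (fun g _ => meetSq₂_smul g) trioSextet_hX
    fun k hk => trioSextet_kinv (OT.mem_keys_of_isSome (List.all_eq_true.mp trioSextet_cert.2.2.2.2 k hk))
  count_base := bi_count (R := meetSq₂) (sortedB_nodup trioSextet_sorted) trioSextet_hX trioSextet_hk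
    (decSets_injOn trioSextet_canon) fun _ hk => trioSextet_kinv hk
  vals := [96, 64, 48, 44]
  vals_base y hy := by
    obtain ⟨k, hk, rfl⟩ := trioSextet_hX y hy
    rw [trioSextet_kinv hk]
    exact List.contains_iff_mem.mp (List.all_eq_true.mp trioSextetCnt_values.2.2.2.2 k hk)

end Cfsg.Agent.M24Sub
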